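import Cfsg.Agent.S2299
import Cfsg.Agent.SL2Val.Identify

/-!
# The two halves of the reducible principal series, and the sign of a half
-/

set_option autoImplicit false
set_option linter.unusedSectionVars false

namespace Cfsg.Agent.SL2Val

open Cfsg
open Cfsg.Agent.CentralExt.SL2 (upper)
open Cfsg.Agent.SL2Char (mult ps psi)
open scoped MatrixGroups ComplexConjugate

variable {F : Type*} [Field F] [Fintype F]

local notation "G" => SL(2, F)
local notation "q" => Fintype.card F

theorem twist_injective (ν : Fˣ) : Function.Injective (twist (F := F) ν) := by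
  intro θ θ' h
  refine Subtype.ext (funext fun g => ?_)
  obtain ⟨y, rfl⟩ := (dil ν).surjective g
  exact congrFun (congrArg Subtype.val h) y

theorem eq_one_of_trivial_on_upper {χ : IrrCharacter G}
    (h : ∀ x : F, (χ : G → ℂ) (upper x) = (χ : G → ℂ) 1) : (χ : G → ℂ) = fun _ => 1 := by
  classical
  letI := Fintype.ofFinite G
  obtain ⟨K, hKn, hK⟩ := Char.isCharacter_exists_kernel (Char.isCharacter_of_irr χ.2)
  haveI := hKn
  have hU : Linear.upperSL ≤ K := fun g hg => by
    rw [Linear.upperSL_eq hg, show Linear.upperT (g 0 1) = upper (g 0 1) from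
      Linear.slTwo_ext (by simp [upper, Matrix.SpecialLinearGroup.transvection, Matrix.transvection])
        (by simp [upper, Matrix.SpecialLinearGroup.transvection, Matrix.transvection])
        (by simp [upper, Matrix.SpecialLinearGroup.transvection, Matrix.transvection])
        (by simp [upper, Matrix.SpecialLinearGroup.transvection, Matrix.transvection])]
    exact (hK _).2 (h _)
  have htop : ∀ g : G, (χ : G → ℂ) g = (χ : G → ℂ) 1 := fun g => (hK g).1 (by
    have : K = ⊤ := by
      rw [eq_top_iff, ← Linear.upperSL_sup_conj_eq_top (g := CentralExt.SL2.weyl)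
        (show ((CentralExt.SL2.weyl : G) : Matrix (Fin 2) (Fin 2) F) 1 0 ≠ 0 by
          simp [CentralExt.SL2.weyl])]
      refine sup_le hU ?_
      rintro _ ⟨y, hy, rfl⟩
      exact hKn.conj_mem y (hU hy) _
    exact this ▸ Subgroup.mem_top g)
  obtain ⟨n, hn, hn'⟩ := Char.irr_one_pos χ.2
  have h1 := Char.classInner_irr_self χ.2
  rw [classInner, Finset.sum_congr rfl (g := fun _ => (n : ℂ) * n) fun g _ => by
    rw [htop, hn', map_natCast], Finset.sum_const, Finset.card_univ, ← Nat.card_eq_fintype_card,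
    nsmul_eq_mul, ← mul_assoc, inv_mul_cancel₀ Char.card_ne_zero_complex, one_mul] at h1
  have h2 : n * n = 1 := by exact_mod_cast h1
  funext g
  rw [htop, hn', (mul_eq_one.1 h2).1, Nat.cast_one]

/-- The reducible principal series is the sum of two characters exchanged by the dilation. -/
theorem exists_split {ν : Fˣ} (hν : ¬ IsSquare (ν : F)) {α : MulChar F ℂ} (hα : α = α⁻¹)
    (hα1 : α ≠ 1) :
    ∃ θ θ' : IrrCharacter G, θ ≠ θ' ∧ ps α = (θ : G → ℂ) + (θ' : G → ℂ) ∧ twist ν θ = θ' ∧
      (θ : G → ℂ) 1 = (((q + 1) / 2 : ℕ) : ℂ) ∧ (θ' : G → ℂ) 1 = (((q + 1) / 2 : ℕ) : ℂ) := by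
  classical
  letI := Fintype.ofFinite G
  have h2 : classInner (ps α) (ps α) = 2 := by
    rw [SL2Char.classInner_ps, if_pos rfl, if_pos hα]; norm_num
  obtain ⟨θ, θ', hne, hdec⟩ := GL2Char.exists_pair_of_character_norm_two (SL2Char.ps_isCharacter α) h2
  have hin : ∀ φ : IrrCharacter G, classInner (ps α) (φ : G → ℂ) =
      (if θ = φ then 1 else 0) + (if θ' = φ then 1 else 0) := fun φ => by
    rw [hdec, Char.classInner_add_left, Char.classInner_irrCharacter, Char.classInner_irrCharacter]
  have hconst : ∀ φ : IrrCharacter G, (φ = θ ∨ φ = θ') → (φ : G → ℂ) ≠ fun _ => 1 := by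
    intro φ hφ h1
    have h := hin φ
    rw [h1, SL2Char.classInner_ps_const, if_neg hα1] at h
    rcases hφ with rfl | rfl
    · rw [if_pos rfl, if_neg hne.symm] at h; norm_num at h
    · rw [if_neg hne, if_pos rfl] at h; norm_num at h
  have htw : ∀ φ : IrrCharacter G, classInner (ps α) (twist ν φ : G → ℂ) =
      classInner (ps α) (φ : G → ℂ) := by
    intro φ
    unfold Cfsg.classInner
    congr 1
    refine Fintype.sum_equiv (dil ν).toEquiv _ _ fun g => ?_
    simp only [twist, Function.comp_apply, MulEquiv.toEquiv_eq_coe, EquivLike.coe_coe, ps_dil]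
  have hmem : twist ν θ = θ ∨ twist ν θ = θ' := by
    by_contra hc
    rw [not_or] at hc
    have h := hin (twist ν θ)
    rw [htw, hin, if_pos rfl, if_neg hne.symm, if_neg (Ne.symm hc.1), if_neg (Ne.symm hc.2)] at h
    norm_num at h
  rcases hmem with hfix | hsw
  · exfalso
    have hfix' : twist ν θ' = θ' := by
      by_contra hc
      have hc' : twist ν θ' ≠ θ := fun e => hne (twist_injective ν (hfix.trans e.symm))
      have h := hin (twist ν θ')
      rw [htw, hin, if_pos rfl, if_neg hne, if_neg hc'.symm, if_neg (Ne.symm hc)] at h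
      norm_num at h
    have hs : ∀ c : F, c ≠ 0 → mult θ c + mult θ' c = 1 := by
      intro c hc
      have h := SL2Char.coef_ps α c
      rw [hdec, SL2Char.coef_add, SL2Char.mult_spec, SL2Char.mult_spec, if_neg hc] at h
      exact_mod_cast h
    have key : ∀ φ : IrrCharacter G, twist ν φ = φ → mult φ 1 = 0 → φ ≠ θ ∧ φ ≠ θ' := by
      intro φ hf h1
      rw [← not_or]
      intro hφ
      refine hconst φ hφ (eq_one_of_trivial_on_upper fun x => ?_)
      have hz : ∀ c : F, c ≠ 0 → mult φ c = 0 := by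
        intro c hc
        rcases SL2Char.exists_sq_mul_or hν c hc with ⟨t, rfl⟩ | ⟨t, rfl⟩ <;> rw [SL2Char.mult_sq_mul]
        · exact h1
        · have h := mult_twist ν φ 1
          rw [hf, mul_one] at h
          rw [← h, h1]
      have hval : ∀ y : F, (φ : G → ℂ) (upper y) = mult φ 0 := fun y => by
        rw [apply_upper_eq, Finset.sum_eq_single (0 : F) (fun c _ hc => by rw [hz c hc]; simp)
          (by simp), zero_mul, AddChar.map_zero_eq_one, mul_one]
      have h0 : (upper (0 : F) : G) = 1 := by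
        apply Subtype.ext; simp [upper, ← Matrix.one_fin_two]
      rw [hval, ← h0, hval]
    rcases Nat.eq_zero_or_pos (mult θ 1) with h | h
    · exact (key θ hfix h).1 rfl
    · exact (key θ' hfix' (by have := hs 1 one_ne_zero; omega)).2 rfl
  · refine ⟨θ, θ', hne, hdec, hsw, ?_⟩
    have h1 : (θ' : G → ℂ) 1 = (θ : G → ℂ) 1 := by rw [← hsw, twist_one]
    obtain ⟨n, -, hn⟩ := Char.irr_one_pos θ.2
    have h := SL2Char.ps_one (F := F) α
    rw [hdec, Pi.add_apply, h1, hn] at h
    have h' : n + n = q + 1 := by exact_mod_cast h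
    rw [h1, hn]
    exact ⟨congrArg Nat.cast (by omega), congrArg Nat.cast (by omega)⟩

/-- When `q ≥ 5` there are only two characters of each half degree. -/
theorem eq_or_eq_of_half_degree (hodd : Odd q) (h5 : 5 ≤ q) {d : ℕ}
    (hd : d = (q + 1) / 2 ∨ d = (q - 1) / 2) {a b c : IrrCharacter G} (hab : a ≠ b)
    (ha : (a : G → ℂ) 1 = d) (hb : (b : G → ℂ) 1 = d) (hc : (c : G → ℂ) 1 = d) :
    c = a ∨ c = b := by
  classical
  obtain ⟨-, hcount⟩ := S2299.result (F := F) hodd
  obtain ⟨-, -, -, -, hH, hD⟩ := hcount h5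
  have h2 : Nat.card {χ : IrrCharacter G // (χ : G → ℂ) 1 = (d : ℂ)} = 2 := by
    rcases hd with rfl | rfl
    exacts [hH, hD]
  obtain ⟨y, -, hy⟩ := (Nat.card_eq_two_iff' (⟨a, ha⟩ : {χ : IrrCharacter G // (χ : G → ℂ) 1 = (d : ℂ)})).1 h2
  by_cases hca : c = a
  · exact Or.inl hca
  · refine Or.inr ?_
    have e1 := hy ⟨c, hc⟩ fun e => hca (congrArg Subtype.val e)
    have e2 := hy ⟨b, hb⟩ fun e => hab (congrArg Subtype.val e).symm
    exact congrArg Subtype.val (e1.trans e2.symm)

/-- The multiplicities of a character of half degree on the non-zero part of the dual of `U`. -/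
theorem half_mult {ν : F} (hν : ¬ IsSquare ν) {χ : IrrCharacter G} (h5 : 5 ≤ q) {d : ℕ}
    (hd : d = (q + 1) / 2 ∨ d = (q - 1) / 2) (hχ : (χ : G → ℂ) 1 = d) :
    mult χ 1 + mult χ ν = 1 ∧ (d = (q + 1) / 2 → mult χ 0 = 1) ∧ (d = (q - 1) / 2 → mult χ 0 = 0) := by
  have hodd := Nat.odd_iff.1 (SL2Char.odd_card_of_nonsquare hν)
  have he := deg_eq hχ
  have hsum := SL2Char.charDegree_odd hν χ
  rcases kinds χ with ⟨-, e⟩ | ⟨-, e⟩ | ⟨-, e⟩ | ⟨-, -, e⟩ | ⟨-, ⟨h0, e⟩ | ⟨h0, e⟩⟩
  iterate 4 (rcases hd with rfl | rfl <;> omega)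
  all_goals
    rw [h0] at hsum
    refine ⟨?_, fun h => ?_, fun h => ?_⟩
  all_goals try omega
  all_goals
    rcases Nat.lt_trichotomy (mult χ 1 + mult χ ν) 1 with hS | hS | hS
  all_goals try exact hS
  all_goals try (rw [show mult χ 1 + mult χ ν = 0 by omega] at hsum; omega)
  all_goals
    have := Nat.mul_le_mul_left (q - 1) (show 2 ≤ mult χ 1 + mult χ ν by omega)
    omega

/-- Twice the value at the transvection, by the quadratic Gauss sum. -/
theorem two_mul_apply_upper [DecidableEq F] {ν : F} (hν : ¬ IsSquare ν) {χ : IrrCharacter G}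
    (h : mult χ 1 + mult χ ν = 1) :
    2 * (χ : G → ℂ) (upper 1) = 2 * (mult χ 0 : ℂ) - 1 + ((mult χ 1 : ℂ) - mult χ ν) *
      gaussSum ((quadraticChar F).ringHomComp (Int.castRingHom ℂ)) (psi F) := by
  have hν0 := SL2Char.ne_zero_of_nonsquare hν
  have hS : (mult χ 1 : ℂ) + mult χ ν = 1 := by exact_mod_cast h
  have hm : ∀ c : F, c ≠ 0 → 2 * (mult χ c : ℂ) = 1 + ((mult χ 1 : ℂ) - mult χ ν) *
      ((quadraticChar F c : ℤ) : ℂ) := by
    intro c hc
    rcases SL2Char.exists_sq_mul_or hν c hc with ⟨t, rfl⟩ | ⟨t, rfl⟩ <;> rw [SL2Char.mult_sq_mul]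
    · rw [mul_one, quadraticChar_sq_one' t.ne_zero]; push_cast; linear_combination hS
    · rw [map_mul, quadraticChar_sq_one' t.ne_zero,
        quadraticChar_neg_one_iff_not_isSquare.2 hν]
      push_cast; linear_combination hS
  rw [apply_upper_eq, Finset.mul_sum, ← Finset.add_sum_erase _ _ (Finset.mem_univ (0 : F)),
    Finset.sum_congr rfl (g := fun c => psi F (c * 1) + ((mult χ 1 : ℂ) - mult χ ν) *
      (((quadraticChar F c : ℤ) : ℂ) * psi F c)) fun c hc => by
      rw [mul_one, ← mul_assoc, hm c (Finset.ne_of_mem_erase hc)]; ring,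
    Finset.sum_add_distrib, sum_psi_erase one_ne_zero, ← Finset.mul_sum,
    Finset.sum_erase _ (by simp)]
  simp only [gaussSum, MulChar.ringHomComp_apply, Int.coe_castRingHom, zero_mul,
    AddChar.map_zero_eq_one]
  ring

end Cfsg.Agent.SL2Val
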