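import Cfsg.Agent.SL2Val.Identify

/-!
# `SL(2, 3)` at an element of order four
-/

set_option autoImplicit false
set_option linter.unusedSectionVars false

namespace Cfsg.Agent.SL2Val

open Cfsg
open Cfsg.Agent.SL2Char (chiOne chiSt)
open scoped MatrixGroups ComplexConjugate

variable {F : Type*} [Field F] [Fintype F]

local notation "G" => SL(2, F)
local notation "M2" => Matrix (Fin 2) (Fin 2) F

theorem three_elliptic (h3 : Fintype.card F = 3) {χ : IrrCharacter G}
    (hd : (χ : G → ℂ) 1 = (((Fintype.card F + 1) / 2 : ℕ) : ℂ)) {g : G}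
    (h : ∀ (c : F) (v : Fin 2 → F), v ≠ 0 → (g : M2).mulVec v ≠ c • v) : (χ : G → ℂ) g = 0 := by
  classical
  letI := Fintype.ofFinite G
  obtain ⟨ν, hν⟩ : ∃ ν : F, ¬ IsSquare ν := FiniteField.exists_nonsquare fun e => by
    have := FiniteField.even_card_of_char_two e
    omega
  obtain ⟨h10, -, hr⟩ := GL2Char.elliptic_entries h
  rw [g.det_coe] at hr
  obtain ⟨H, D, W, -, hD, -, -, kD, -, -⟩ := SL2Char.odd_classification hν
  have hC := Linear.Classes.card_centralizer_SL_no_root (g := g) (fun c e => h10 (by rw [e]; simp)) hr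
  have hsum := Char.sum_irr_mul_conj g g
  rw [if_pos (IsConj.refl g), hC, h3] at hsum
  have hd2 := deg_eq hd
  rw [h3] at hd2
  have hnot : χ ∉ insert (chiOne F) (insert (chiSt F) D) := by
    simp only [Finset.mem_insert, not_or]
    refine ⟨?_, ?_, fun e => ?_⟩
    · rintro rfl; rw [SL2Char.charDegree_chiOne_odd hν] at hd2; omega
    · rintro rfl; rw [SL2Char.charDegree_chiSt_odd hν] at hd2; omega
    · have := (kD χ e).2.2.2; omega
  have hone : ∀ ψ ∈ insert (chiOne F) (insert (chiSt F) D),
      Complex.normSq ((ψ : G → ℂ) g) = 1 := by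
    intro ψ hψ
    simp only [Finset.mem_insert] at hψ
    rcases hψ with rfl | rfl | e
    · simp [chiOne]
    · simp only [chiSt, SL2Char.st, Pi.sub_apply, ps_elliptic _ h]; simp
    · have hdeg : (ψ : G → ℂ) 1 = 1 := by
        rw [(Char.irr_charDegree_spec ψ.2).2, show charDegree (ψ : G → ℂ) = 1 by
          have := (kD ψ e).2.2.2; omega, Nat.cast_one]
      obtain ⟨f, hf⟩ := Char.exists_monoidHom_of_degree_one (Char.isCharacter_of_irr ψ.2) hdeg
      have h1 := Char.irr_inv ψ.2 g
      rw [hf, hf, map_inv] at h1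
      apply Complex.ofReal_injective
      rw [← Complex.mul_conj, hf, ← h1, ← Units.val_mul, mul_inv_cancel, Units.val_one,
        Complex.ofReal_one]
  simp only [Complex.mul_conj, ← Complex.ofReal_natCast, ← Complex.ofReal_sum,
    Complex.ofReal_inj] at hsum
  rw [← Finset.sum_add_sum_compl (insert (chiOne F) (insert (chiSt F) D)),
    Finset.sum_congr rfl hone, Finset.sum_const, Finset.card_insert_of_notMem,
    Finset.card_insert_of_notMem, hD] at hsum
  · rw [nsmul_eq_mul, mul_one] at hsum
    push_cast at hsum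
    rw [add_eq_left, Finset.sum_eq_zero_iff_of_nonneg fun ψ _ => Complex.normSq_nonneg _] at hsum
    exact Complex.normSq_eq_zero.1 (hsum χ (Finset.mem_compl.2 hnot))
  · exact fun e => (SL2Char.mem_rest.1 (kD _ e).1).2.1 rfl
  · simp only [Finset.mem_insert, not_or]
    exact ⟨SL2Char.chiOne_ne_chiSt, fun e => (SL2Char.mem_rest.1 (kD _ e).1).1 rfl⟩

end Cfsg.Agent.SL2Val
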