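import Cfsg.Agent.SL2Val.Cuspidal

/-!
# Irreducibility of the cuspidal characters and their values
-/

set_option autoImplicit false
set_option linter.unusedSectionVars false
set_option linter.style.haveILetI false

namespace Cfsg.Agent.SL2Val

open Cfsg
open Cfsg.Agent.CentralExt.SL2 (upper)
open Cfsg.Agent.SL2Char (ps negId)
open scoped MatrixGroups ComplexConjugate

variable {F : Type*} [Field F] [Fintype F] {C : Subgroup SL(2, F)}

local notation "G" => SL(2, F)
local notation "q" => Fintype.card F

theorem chi_irr (hC : IsCyclic C) (hcard : Nat.card C = q + 1) (h2 : (2 : F) ≠ 0)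
    {α : MulChar F ℂ} {θ : C →* ℂˣ}
    (hα : ∀ c : C, (c : G) = negId F → (θ c : ℂ) = α (-1)) (hθ : ∃ c : C, θ c ^ 2 ≠ 1) :
    IsIrrCharacter G (chi C α θ) := by
  classical
  letI := Fintype.ofFinite G
  have hne : ¬ (θ⁻¹ * θ⁻¹ = 1) := by
    obtain ⟨c, hc⟩ := hθ
    intro e
    have h := DFunLike.congr_fun e c
    rw [MonoidHom.mul_apply, MonoidHom.inv_apply, MonoidHom.one_apply, ← mul_inv,
      inv_eq_one, ← sq] at h
    exact hc h
  rcases Char.generalized_norm_one (chi_isGeneralized α θ)
    (by rw [classInner_chi_self hC hcard h2 hα, if_neg hne]) with h | h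
  · exact h
  · exfalso
    obtain ⟨n, hn, hn'⟩ := Char.irr_one_pos h
    rw [Pi.neg_apply, chi_one hC hcard h2 hα] at hn'
    have h3 : ((n + q : ℕ) : ℂ) = ((1 : ℕ) : ℂ) := by push_cast; linear_combination -hn'
    have := Nat.cast_injective h3
    have := Fintype.one_lt_card (α := F)
    omega

end Cfsg.Agent.SL2Val
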