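import Cfsg.Agent.SL2Val.Cuspidal
import Cfsg.Agent.SL2Val.Halves

/-!
# The two characters of degree `(q - 1) / 2` on the non-split torus
-/

set_option autoImplicit false
set_option linter.unusedSectionVars false
set_option linter.style.haveILetI false

namespace Cfsg.Agent.SL2Val

open Cfsg
open Cfsg.Agent.CentralExt.SL2 (upper)
open Cfsg.Agent.SL2Char (ps negId mult chiOne chiSt psSet)
open scoped MatrixGroups ComplexConjugate

section NormTwo

variable {H : Type*} [Group H] [Fintype H]

/-- A generalized character of norm two. -/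
theorem exists_pair_norm_two {v : H → ℂ} (hv : IsGeneralizedCharacter H v)
    (h2 : classInner v v = 2) :
    ∃ (a b : IrrCharacter H) (s t : ℤ), a ≠ b ∧ (s = 1 ∨ s = -1) ∧ (t = 1 ∨ t = -1) ∧
      v = (s : ℂ) • (a : H → ℂ) + (t : ℂ) • (b : H → ℂ) := by
  classical
  choose x hx using Char.isGeneralizedCharacter_classInner_int hv
  have hcl := Char.isGeneralizedCharacter_isClassFunction hv
  have hsum : ∑ ψ, x ψ * x ψ = 2 := by
    have := Char.classInner_eq_sum_mul_conj (b := v) hcl
    rw [h2] at this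
    simp only [hx, map_intCast] at this
    exact_mod_cast this.symm
  set s := Finset.univ.filter fun ψ => x ψ ≠ 0 with hs
  have hpm : ∀ ψ ∈ s, x ψ = 1 ∨ x ψ = -1 := by
    intro ψ hψ
    have h0 : x ψ ≠ 0 := (Finset.mem_filter.1 hψ).2
    have hle : x ψ * x ψ ≤ 2 :=
      hsum ▸ Finset.single_le_sum (fun y _ => mul_self_nonneg (x y)) (Finset.mem_univ ψ)
    have hlt : x ψ < 2 := by nlinarith
    have hgt : -2 < x ψ := by nlinarith
    omega
  have hcard : s.card = 2 := by
    have e : ∑ ψ ∈ s, x ψ * x ψ = 2 := by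
      rw [← hsum]
      exact Finset.sum_subset (Finset.subset_univ s) fun y _ hy => by
        simp only [s, Finset.mem_filter, Finset.mem_univ, true_and, not_not] at hy
        simp [hy]
    rw [Finset.sum_congr rfl (g := fun _ => (1 : ℤ)) fun ψ hψ => by
      rcases hpm ψ hψ with h | h <;> simp [h]] at e
    simp only [Finset.sum_const, nsmul_eq_mul, mul_one] at e
    exact_mod_cast e
  obtain ⟨a, b, hab, hpair⟩ := Finset.card_eq_two.1 hcard
  refine ⟨a, b, x a, x b, hab, hpm a (by rw [hpair]; simp), hpm b (by rw [hpair]; simp), ?_⟩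
  refine (Char.eq_sum_classInner_smul hcl).trans ?_
  rw [← Finset.sum_subset (Finset.subset_univ s) fun y _ hy => by
    simp only [s, Finset.mem_filter, Finset.mem_univ, true_and, not_not] at hy
    simp [hx, hy], hpair, Finset.sum_pair hab, hx, hx]

end NormTwo

variable {F : Type*} [Field F] [Fintype F] {C : Subgroup SL(2, F)}

local notation "G" => SL(2, F)
local notation "q" => Fintype.card F

/-- The characters of degree `(q - 1) / 2` at non-central elements of the torus. -/
theorem half_torus (hC : IsCyclic C) (hcard : Nat.card C = q + 1) (hodd : Odd q) (h5 : 5 ≤ q)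
    {η : C →* ℂˣ} (hη : η * η = 1) {c₀ : C} (hc₀ : (c₀ : G) ∉ Subgroup.center G)
    (hη₀ : (η c₀ : ℂ) = -1) {χ : IrrCharacter G}
    (hχ : (χ : G → ℂ) 1 = (((q - 1) / 2 : ℕ) : ℂ)) (c : C) (hc : (c : G) ∉ Subgroup.center G) :
    (χ : G → ℂ) (c : G) = -(η c : ℂ) := by
  classical
  letI := Fintype.ofFinite G
  have h2 : (2 : F) ≠ 0 := Linear.two_ne_zero_of_odd_card hodd
  obtain ⟨α, hα⟩ := exists_sign_char hC hcard h2 η
  have hinv : ∀ y : C, ((η y)⁻¹ : ℂˣ) = η y := fun y => by
    rw [inv_eq_iff_mul_eq_one]; exact DFunLike.congr_fun hη y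
  have hη' : η⁻¹ * η⁻¹ = 1 := MonoidHom.ext fun y => by
    rw [MonoidHom.mul_apply, MonoidHom.inv_apply, hinv]
    exact DFunLike.congr_fun hη y
  obtain ⟨a, b, s, t, hab, hs, ht, hv⟩ := exists_pair_norm_two (chi_isGeneralized α η)
    (by rw [classInner_chi_self hC hcard h2 hα, if_pos hη'])
  have hps : ∀ β : MulChar F ℂ,
      (s : ℂ) * classInner (a : G → ℂ) (ps β) + (t : ℂ) * classInner (b : G → ℂ) (ps β) = 0 := by
    intro β
    have h := classInner_chi_ps hC hcard h2 hα β
    rwa [hv, Char.classInner_add_left, Char.classInner_smul_left, Char.classInner_smul_left] at h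
  have hdeg : (s : ℂ) * (a : G → ℂ) 1 + (t : ℂ) * (b : G → ℂ) 1 = (q : ℂ) - 1 := by
    have h := chi_one hC hcard h2 hα
    rwa [hv] at h
  have hval : ∀ y : C, (y : G) ∉ Subgroup.center G →
      (s : ℂ) * (a : G → ℂ) (y : G) + (t : ℂ) * (b : G → ℂ) (y : G) = -2 * (η y : ℂ) := by
    intro y hy
    have h := chi_torus hC hcard h2 α η y hy
    rw [hv, hinv y] at h
    simp only [Pi.add_apply, Pi.smul_apply, smul_eq_mul] at h
    rw [h]; ring
  obtain ⟨ν, hν⟩ := FiniteField.exists_nonsquare (F := F)
    (fun e => by have := FiniteField.even_card_of_char_two e; have := Nat.odd_iff.1 hodd; omega)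
  -- a constituent is not in the principal series
  have hnot : ∀ (e f : IrrCharacter G) (σ τ : ℤ), e ≠ f → (σ = 1 ∨ σ = -1) → (τ = 1 ∨ τ = -1) →
      (∀ β : MulChar F ℂ,
        (σ : ℂ) * classInner (e : G → ℂ) (ps β) + (τ : ℂ) * classInner (f : G → ℂ) (ps β) = 0) →
      ((σ : ℂ) * (e : G → ℂ) 1 + (τ : ℂ) * (f : G → ℂ) 1 = (q : ℂ) - 1) →
      ((σ : ℂ) * (e : G → ℂ) (c₀ : G) + (τ : ℂ) * (f : G → ℂ) (c₀ : G) = -2 * (η c₀ : ℂ)) →
      2 * charDegree (e : G → ℂ) = q - 1 ∨ charDegree (e : G → ℂ) = q - 1 := by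
    intro e f σ τ hef hσ hτ hpsef hdegef hvalef
    obtain ⟨H, D, W, -, -, -, kH, kD, kW, hall⟩ := SL2Char.odd_classification hν
    have hσ0 : (σ : ℂ) ≠ 0 := by rcases hσ with rfl | rfl <;> norm_num
    obtain ⟨-, -, -, -, -, hell⟩ := torus_facts hC hcard h2 c₀.2 hc₀
    -- the two constituents of a reducible member of the principal series
    have hpair : ∀ (β : MulChar F ℂ) (u v : IrrCharacter G), u ≠ v →
        ps β = (u : G → ℂ) + (v : G → ℂ) → e = u → f = v ∧ τ = -σ := by
      intro β u v huv hdec heu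
      have h := hpsef β
      rw [hdec, Char.classInner_add_right, Char.classInner_add_right, Char.classInner_irrCharacter,
        Char.classInner_irrCharacter, Char.classInner_irrCharacter, Char.classInner_irrCharacter,
        heu, if_pos rfl, if_neg huv, if_neg (fun h => hef (heu.trans h.symm))] at h
      split_ifs at h with hfv
      · refine ⟨hfv, ?_⟩
        have h' : (τ : ℂ) = -(σ : ℂ) := by linear_combination h
        exact_mod_cast h'
      · exact absurd (by linear_combination h) hσ0
    rcases hall e with h | h | h | h | h | h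
    · exfalso
      obtain ⟨rfl, rfl⟩ := hpair 1 (chiOne F) (chiSt F) SL2Char.chiOne_ne_chiSt
        (by funext g; simp [chiOne, chiSt, SL2Char.st]) h
      subst h
      have hst : ((chiSt F : IrrCharacter G) : G → ℂ) 1 = q := by
        show SL2Char.st F 1 = _
        simp [SL2Char.st, SL2Char.ps_one]
      have hst' : ((chiSt F : IrrCharacter G) : G → ℂ) (c₀ : G) = -1 := by
        show SL2Char.st F (c₀ : G) = _
        simp [SL2Char.st, ps_elliptic _ hell]
      have h1 : ∀ g : G, ((chiOne F : IrrCharacter G) : G → ℂ) g = 1 := fun g => rfl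
      rw [h1, hst', hη₀] at hvalef
      rw [h1, hst] at hdegef
      have hσ1 : (σ : ℂ) = 1 := by push_cast at hvalef; linear_combination (1 / 2 : ℂ) * hvalef
      push_cast at hdegef
      rw [hσ1] at hdegef
      have : ((2 * q : ℕ) : ℂ) = ((2 : ℕ) : ℂ) := by push_cast; linear_combination -hdegef
      have := Nat.cast_injective this
      omega
    · exfalso
      obtain ⟨rfl, rfl⟩ := hpair 1 (chiSt F) (chiOne F) SL2Char.chiOne_ne_chiSt.symm
        (by funext g; simp [chiOne, chiSt, SL2Char.st]) h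
      subst h
      have hst : ((chiSt F : IrrCharacter G) : G → ℂ) 1 = q := by
        show SL2Char.st F 1 = _
        simp [SL2Char.st, SL2Char.ps_one]
      have hst' : ((chiSt F : IrrCharacter G) : G → ℂ) (c₀ : G) = -1 := by
        show SL2Char.st F (c₀ : G) = _
        simp [SL2Char.st, ps_elliptic _ hell]
      have h1 : ∀ g : G, ((chiOne F : IrrCharacter G) : G → ℂ) g = 1 := fun g => rfl
      rw [h1, hst', hη₀] at hvalef
      rw [h1, hst] at hdegef
      have hσ1 : (σ : ℂ) = -1 := by push_cast at hvalef; linear_combination (-1 / 2 : ℂ) * hvalef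
      push_cast at hdegef
      rw [hσ1] at hdegef
      have : ((2 * q : ℕ) : ℂ) = ((2 : ℕ) : ℂ) := by push_cast; linear_combination -hdegef
      have := Nat.cast_injective this
      omega
    · exfalso
      obtain ⟨β, hβ, rfl⟩ := SL2Char.mem_psSet.1 h
      have h' := hpsef β
      rw [← SL2Char.psI_val hβ, Char.classInner_irrCharacter, Char.classInner_irrCharacter,
        if_pos rfl, if_neg hef.symm] at h'
      exact hσ0 (by linear_combination h')
    · exfalso
      obtain ⟨ε, hε1, hε2, -⟩ := SL2Char.exists_quadratic hν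
      have hν0 := SL2Char.ne_zero_of_nonsquare hν
      obtain ⟨u, v, huv, hdec, -, hu1, hv1⟩ :=
        exists_split (ν := Units.mk0 ν hν0) (by simpa using hν) hε2 hε1
      have he1 : (e : G → ℂ) 1 = (((q + 1) / 2 : ℕ) : ℂ) := by
        rw [(Char.irr_charDegree_spec e.2).2]
        congr 1
        have := (kH e h).2.2.2
        omega
      have key : ∀ u v : IrrCharacter G, u ≠ v → ps ε = (u : G → ℂ) + (v : G → ℂ) →
          (v : G → ℂ) 1 = (u : G → ℂ) 1 → e = u → False := by
        intro u v huv hdec huv1 heu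
        obtain ⟨hfv, hτσ⟩ := hpair ε u v huv hdec heu
        rw [heu, hfv, huv1, hτσ] at hdegef
        have : (q : ℂ) = ((1 : ℕ) : ℂ) := by push_cast at hdegef ⊢; linear_combination -hdegef
        have := Nat.cast_injective this
        omega
      rcases eq_or_eq_of_half_degree hodd h5 (Or.inl rfl) huv hu1 hv1 he1 with he | he
      · exact key u v huv hdec (hv1.trans hu1.symm) he
      · exact key v u huv.symm (hdec.trans (add_comm _ _)) (hu1.trans hv1.symm) he
    · exact Or.inl (kD e h).2.2.2
    · exact Or.inr (kW e h).2.2.2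
  have ha := hnot a b s t hab hs ht hps hdeg (hval c₀ hc₀)
  have hb := hnot b a t s hab.symm ht hs (fun β => by rw [add_comm]; exact hps β)
    (by rw [add_comm]; exact hdeg) (by rw [add_comm]; exact hval c₀ hc₀)
  obtain ⟨m, hm⟩ : ∃ m, q = 2 * m + 1 := hodd
  obtain ⟨ha1, hb1, hs1, ht1⟩ :
      charDegree (a : G → ℂ) = m ∧ charDegree (b : G → ℂ) = m ∧ s = 1 ∧ t = 1 := by
    have h := hdeg
    rw [(Char.irr_charDegree_spec a.2).2, (Char.irr_charDegree_spec b.2).2] at h
    have h' : s * (charDegree (a : G → ℂ) : ℤ) + t * (charDegree (b : G → ℂ) : ℤ) + 1 = (q : ℤ) := by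
      have h'' : (s : ℂ) * (charDegree (a : G → ℂ) : ℂ) + (t : ℂ) * (charDegree (b : G → ℂ) : ℂ) + 1
          = (q : ℂ) := by linear_combination h
      exact_mod_cast h''
    rw [hm] at ha hb h' h5
    rcases hs with rfl | rfl <;> rcases ht with rfl | rfl <;> rcases ha with ha | ha <;>
      rcases hb with hb | hb <;> omega
  subst hs1 ht1
  have hA : (a : G → ℂ) 1 = (((q - 1) / 2 : ℕ) : ℂ) := by
    rw [(Char.irr_charDegree_spec a.2).2, ha1]; congr 1; omega
  have hB : (b : G → ℂ) 1 = (((q - 1) / 2 : ℕ) : ℂ) := by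
    rw [(Char.irr_charDegree_spec b.2).2, hb1]; congr 1; omega
  have hν0 := SL2Char.ne_zero_of_nonsquare hν
  set νu : Fˣ := Units.mk0 ν hν0
  have hsw : twist νu a = b := by
    rcases eq_or_eq_of_half_degree ⟨m, hm⟩ h5 (Or.inr rfl) hab hA hB
      (show (twist νu a : G → ℂ) 1 = _ by rw [twist_one, hA]) with h | h
    · exfalso
      have h1 := mult_twist νu a 1
      rw [h, mul_one] at h1
      have := (half_mult hν h5 (Or.inr rfl) hA).1
      rw [show (νu : F) = ν from rfl] at h1
      omega
    · exact h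
  obtain ⟨-, -, -, -, -, hec⟩ := torus_facts hC hcard h2 c.2 hc
  have hbc : (b : G → ℂ) (c : G) = (a : G → ℂ) (c : G) := by
    rw [← hsw]
    obtain ⟨y, hy⟩ := isConj_iff.1 (dil_isConj νu hec)
    show (a : G → ℂ) (dil νu (c : G)) = _
    rw [← hy]
    exact Char.isCharacter_isClassFunction (Char.isCharacter_of_irr a.2) _ _
  have hac : (a : G → ℂ) (c : G) = -(η c : ℂ) := by
    have h := hval c hc
    rw [hbc] at h
    push_cast at h
    linear_combination (1 / 2 : ℂ) * h
  rcases eq_or_eq_of_half_degree ⟨m, hm⟩ h5 (Or.inr rfl) hab hA hB hχ with rfl | rfl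
  · exact hac
  · exact hbc.trans hac

end Cfsg.Agent.SL2Val
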