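import Cfsg.Agent.SL2Val.Identify
import Cfsg.Agent.SL2Char.Twist
import Cfsg.Agent.Spec.TorusTwo
import Cfsg.Agent.Linear.Orders

/-!
# The virtual characters attached to the non-split torus of `SL(2, q)`, `q` odd

For a character `θ` of a cyclic subgroup `C` of order `q + 1` and a character `α` of `Fˣ` that
agrees with `θ` at `-1`, the class function `chi = ps α * St - ps α - Ind θ` has degree `q - 1`
and norm `1` or `2` according as `θ² ≠ 1` or `θ² = 1`.
-/

set_option autoImplicit false
set_option linter.unusedSectionVars false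
set_option linter.style.haveILetI false

namespace Cfsg.Agent.SL2Val

open Cfsg
open Cfsg.Agent.CentralExt.SL2 (upper)
open Cfsg.Agent.Spec.Principal (borel lift mem_borel)
open Cfsg.Agent.SL2Char (ps negId st)
open Cfsg.Agent.Linear.Classes (Nonscalar)
open scoped MatrixGroups ComplexConjugate

variable {F : Type*} [Field F] [Fintype F]

local notation "G" => SL(2, F)
local notation "q" => Fintype.card F
local notation "M2" => Matrix (Fin 2) (Fin 2) F

theorem center_cases {z : G} (hz : z ∈ Subgroup.center G) : z = 1 ∨ z = negId F := by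
  obtain ⟨c, hc, hzc⟩ := Linear.Classes.scalar_SL (Linear.Classes.mem_center_iff_scalar.1 hz)
  rcases sq_eq_one_iff.1 hc with rfl | rfl
  · exact Or.inl (Subtype.ext (by rw [hzc, one_smul, Matrix.SpecialLinearGroup.coe_one]))
  · refine Or.inr (Subtype.ext ?_)
    rw [hzc]
    ext i j
    fin_cases i <;> fin_cases j <;> simp [negId]

theorem negId_ne_one (h2 : (2 : F) ≠ 0) : negId F ≠ 1 := fun h => by
  have e := congrArg (fun g : G => (g : M2) 0 0) h
  simp [negId] at e
  exact h2 (by linear_combination -e)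

theorem root_of_borel {b : G} (hb : b ∈ borel (F := F)) :
    (b : M2) 0 0 ^ 2 - (b : M2).trace * (b : M2) 0 0 + 1 = 0 := by
  have hd := Linear.slTwo_det b
  rw [mem_borel.1 hb] at hd
  rw [Matrix.trace_fin_two]
  linear_combination -hd

theorem trace_conj (g x : G) : ((x⁻¹ * g * x : G) : M2).trace = (g : M2).trace :=
  (Linear.Classes.trace_eq_of_isConj (isConj_iff.2 ⟨x⁻¹, by rw [inv_inv]⟩)).symm

/-- What is used of an element of a non-split torus `C`. -/
theorem torus_facts {C : Subgroup G} (hC : IsCyclic C) (hcard : Nat.card C = q + 1)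
    (h2 : (2 : F) ≠ 0) {c : G} (hc : c ∈ C) (hnc : c ∉ Subgroup.center G) :
    Nonscalar (c : M2) ∧ (∀ r : F, r ^ 2 - (c : M2).trace * r + 1 ≠ 0) ∧
      (c : M2).trace ^ 2 ≠ 4 ∧ C = Subgroup.centralizer ({c} : Set G) ∧ c⁻¹ ≠ c ∧
      (∀ (r : F) (v : Fin 2 → F), v ≠ 0 → (c : M2).mulVec v ≠ r • v) := by
  have hns : Nonscalar (c : M2) := by
    by_contra h; exact hnc (Linear.Classes.mem_center_iff_scalar.2 h)
  haveI := hC
  letI := hC.commGroup
  have hle : C ≤ Subgroup.centralizer ({c} : Set G) := by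
    intro x hx
    rw [Subgroup.mem_centralizer_singleton_iff]
    exact congrArg Subtype.val (mul_comm (⟨x, hx⟩ : C) ⟨c, hc⟩)
  have hdvd := Subgroup.card_dvd_of_le hle
  rw [hcard] at hdvd
  have hq : 3 ≤ q := by
    rcases Nat.lt_or_ge q 3 with h | h
    · have h' : q = 2 := by have := Fintype.one_lt_card (α := F); omega
      exact absurd (by simpa [h'] using FiniteField.cast_card_eq_zero F) h2
    · exact h
  rcases Linear.Classes.centralizer_SL_cases hns with ⟨hr, hcc⟩ | ⟨-, hcc⟩ | ⟨-, hcc⟩
  rotate_left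
  · exfalso; rw [hcc] at hdvd; have := Nat.le_of_dvd (by omega) hdvd; omega
  · exfalso
    rw [hcc, Linear.Classes.card_sq_one_odd h2] at hdvd
    have h' : q + 1 ∣ 2 := by
      have := Nat.dvd_sub (dvd_mul_left (q + 1) 2) hdvd
      rwa [mul_add, Nat.add_sub_cancel_left, mul_one] at this
    have := Nat.le_of_dvd (by omega) h'
    omega
  have ht : (c : M2).trace ^ 2 ≠ 4 := by
    have h := (Linear.Classes.discr_of_no_root hr).resolve_left h2
    rwa [mul_one] at h
  refine ⟨hns, hr, ht, ?_, ?_, ?_⟩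
  · exact Subgroup.eq_of_le_of_card_ge hle (by rw [hcc, hcard])
  · intro e
    have hcc' : c * c = 1 := by rw [mul_eq_one_iff_eq_inv]; exact e.symm
    rcases (Spec.Two.mul_self_eq_one_iff h2 c).1 hcc' with h | h
    · exact ht (by rw [h, Matrix.trace_one]; norm_num)
    · exact ht (by rw [h, Matrix.trace_neg, Matrix.trace_one]; norm_num)
  · intro r v hv e
    refine hr r ?_
    have h0 : ((c : M2) - r • (1 : M2)).det = 0 := Matrix.exists_mulVec_eq_zero_iff.1
      ⟨v, hv, by rw [Matrix.sub_mulVec, Matrix.smul_mulVec, Matrix.one_mulVec, e, sub_self]⟩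
    have hd := Linear.slTwo_det c
    simp [Matrix.det_fin_two] at h0
    rw [Matrix.trace_fin_two]
    linear_combination h0 - hd

variable {C : Subgroup SL(2, F)}

/-- A generator of a non-split torus is not central. -/
theorem exists_gen (hC : IsCyclic C) (hcard : Nat.card C = q + 1) (h2 : (2 : F) ≠ 0) :
    ∃ c : C, (∀ x : C, x ∈ Subgroup.zpowers c) ∧ (c : G) ∉ Subgroup.center G := by
  classical
  obtain ⟨c, hc⟩ := hC.exists_generator
  refine ⟨c, hc, fun hz => ?_⟩
  have ho : orderOf c = q + 1 := hcard ▸ orderOf_eq_card_of_forall_mem_zpowers hc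
  have h : c ^ 2 = 1 := by
    apply Subtype.ext
    rcases center_cases hz with e | e
    · rw [Subgroup.coe_pow, e, one_pow, Subgroup.coe_one]
    · rw [Subgroup.coe_pow, e, SL2Char.negId_sq, Subgroup.coe_one]
  have := Nat.le_of_dvd (by norm_num) (orderOf_dvd_of_pow_eq_one h)
  have := Fintype.one_lt_card (α := F)
  omega

theorem negId_mem (hC : IsCyclic C) (hcard : Nat.card C = q + 1) (h2 : (2 : F) ≠ 0) :
    negId F ∈ C := by
  obtain ⟨c, -, hnc⟩ := exists_gen hC hcard h2
  obtain ⟨-, -, -, e, -⟩ := torus_facts hC hcard h2 c.2 hnc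
  rw [e]
  exact Subgroup.center_le_centralizer _ SL2Char.negId_center

theorem index_torus (hcard : Nat.card C = q + 1) : C.index = q * (q - 1) := by
  refine Nat.eq_of_mul_eq_mul_left (n := q + 1) (by omega) ?_
  conv_lhs => rw [← hcard, C.card_mul_index, Linear.card_SL_two]
  ring

section values

variable (C)

/-- The function `θ` induced from the torus. -/
noncomputable def indT (θ : C →* ℂˣ) : G → ℂ :=
  letI := Fintype.ofFinite G
  Cfsg.indFun C (fun c => (θ c : ℂ))

/-- The virtual character `ps α * St - ps α - Ind θ`. -/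
noncomputable def chi (α : MulChar F ℂ) (θ : C →* ℂˣ) : G → ℂ :=
  ps α * st F - ps α - indT C θ

variable {C}

theorem conj_hom (θ : C →* ℂˣ) (c : C) : conj (θ c : ℂ) = ((θ c)⁻¹ : ℂˣ) := by
  classical
  have h := Char.irr_inv (Char.isIrrCharacter_monoidHom θ) c
  rw [← map_inv]
  exact h.symm

theorem chi_isGeneralized (α : MulChar F ℂ) (θ : C →* ℂˣ) :
    IsGeneralizedCharacter G (chi C α θ) := by
  classical
  letI := Fintype.ofFinite G
  have hp := Char.isGeneralizedCharacter_of_isCharacter (SL2Char.ps_isCharacter α)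
  have hi : IsGeneralizedCharacter G (indT C θ) := Char.isGeneralizedCharacter_of_isCharacter
    (CharInd.isCharacter_indFun C (Char.isCharacter_of_irr (Char.isIrrCharacter_monoidHom θ)))
  exact Char.isGeneralizedCharacter_sub (Char.isGeneralizedCharacter_sub
    (Char.isGeneralizedCharacter_mul hp (Char.isGeneralizedCharacter_of_irr SL2Char.st_irr)) hp) hi

theorem chi_isClassFunction (α : MulChar F ℂ) (θ : C →* ℂˣ) :
    IsClassFunction G (chi C α θ) :=
  Char.isGeneralizedCharacter_isClassFunction (chi_isGeneralized α θ)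

theorem indT_center (hcard : Nat.card C = q + 1) (θ : C →* ℂˣ) (c : C)
    (hc : (c : G) ∈ Subgroup.center G) :
    indT C θ (c : G) = (q : ℂ) * ((q : ℂ) - 1) * (θ c : ℂ) := by
  classical
  letI := Fintype.ofFinite G
  have hx : ∀ x : G, x⁻¹ * (c : G) * x = c := fun x => by
    rw [mul_assoc, ← Subgroup.mem_center_iff.1 hc x, inv_mul_cancel_left]
  rw [indT, CharInd.indFun_apply]
  have hmul : ∀ x : G, x⁻¹ * ((c : G) * x) = c := fun x => by rw [← mul_assoc]; exact hx x
  simp only [hx, hmul, CharInd.extendByZero_mem _ _ c.2, Finset.sum_const, Finset.card_univ,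
    nsmul_eq_mul]
  rw [← Nat.card_eq_fintype_card, ← C.card_mul_index, index_torus hcard, hcard]
  have hq1 : (((q + 1 : ℕ)) : ℂ) ≠ 0 := Nat.cast_ne_zero.2 (by omega)
  have hq : 1 ≤ q := Fintype.card_pos
  push_cast [Nat.cast_sub hq]
  push_cast at hq1
  field_simp

theorem indT_torus (hC : IsCyclic C) (hcard : Nat.card C = q + 1) (h2 : (2 : F) ≠ 0)
    (θ : C →* ℂˣ) (c : C) (hnc : (c : G) ∉ Subgroup.center G) :
    indT C θ (c : G) = (θ c : ℂ) + ((θ c)⁻¹ : ℂˣ) := by
  classical
  letI := Fintype.ofFinite G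
  obtain ⟨hns, hr, ht, hCc, hinv, -⟩ := torus_facts hC hcard h2 c.2 hnc
  have hns' : Nonscalar (((c : G)⁻¹ : G) : M2) := by
    by_contra h
    exact hnc (inv_mem_iff.1 (Linear.Classes.mem_center_iff_scalar.2 h))
  obtain ⟨x₀, hx₀⟩ : ∃ x₀ : G, x₀⁻¹ * (c : G) * x₀ = (c : G)⁻¹ := by
    obtain ⟨y, hy⟩ := isConj_iff.1 (Linear.Classes.isConj_SL_of_trace hns hns'
      (Spec.Two.trace_inv _).symm (Linear.Classes.discr_of_no_root hr))
    exact ⟨y⁻¹, by rw [inv_inv]; exact hy⟩
  have hval : ∀ x : G, Cfsg.extendByZero C (fun d => (θ d : ℂ)) (x⁻¹ * (c : G) * x) =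
      (if x⁻¹ * (c : G) * x = c then (θ c : ℂ) else 0) +
        (if x⁻¹ * (c : G) * x = (c : G)⁻¹ then (((θ c)⁻¹ : ℂˣ) : ℂ) else (0 : ℂ)) := by
    intro x
    by_cases h1 : x⁻¹ * (c : G) * x = c
    · rw [if_pos h1, if_neg (fun e => hinv (e.symm.trans h1)), add_zero, h1,
        CharInd.extendByZero_mem _ _ c.2]
    by_cases h2' : x⁻¹ * (c : G) * x = (c : G)⁻¹
    · rw [if_neg h1, if_pos h2', zero_add, h2', CharInd.extendByZero_mem _ _ (inv_mem c.2)]
      show (θ c⁻¹ : ℂ) = _
      rw [map_inv]
    rw [if_neg h1, if_neg h2', add_zero]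
    refine CharInd.extendByZero_notMem _ _ fun hm => ?_
    rw [SetLike.ext_iff.1 hCc, Subgroup.mem_centralizer_singleton_iff] at hm
    rcases Spec.Two.eq_or_eq_inv h2 (c : G) _ ht hm (trace_conj _ _) with e | e
    · exact h1 e
    · exact h2' e
  have hcard1 : (Finset.univ.filter fun x : G => x⁻¹ * (c : G) * x = c).card = q + 1 := by
    rw [← hcard, Nat.card_eq_fintype_card, ← Fintype.card_subtype]
    refine Fintype.card_congr (Equiv.subtypeEquivRight fun x => ?_)
    rw [SetLike.ext_iff.1 hCc x, Subgroup.mem_centralizer_singleton_iff, mul_assoc,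
      inv_mul_eq_iff_eq_mul]
    exact eq_comm
  have hcard2 : (Finset.univ.filter fun x : G => x⁻¹ * (c : G) * x = (c : G)⁻¹).card = q + 1 := by
    rw [← hcard1]
    refine (Finset.card_equiv (Equiv.mulRight x₀) fun x => ?_).symm
    simp only [Finset.mem_filter, Finset.mem_univ, true_and, Equiv.coe_mulRight, mul_inv_rev]
    have e : x₀⁻¹ * x⁻¹ * (c : G) * (x * x₀) = x₀⁻¹ * (x⁻¹ * (c : G) * x) * x₀ := by group
    rw [e, ← hx₀]
    simp
  rw [indT, CharInd.indFun_apply]
  simp only [hval, Finset.sum_add_distrib, ← Finset.sum_filter, Finset.sum_const, hcard1, hcard2,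
    nsmul_eq_mul]
  rw [hcard]
  have hq1 : (((q + 1 : ℕ)) : ℂ) ≠ 0 := Nat.cast_ne_zero.2 (by omega)
  field_simp

theorem indT_borel (hC : IsCyclic C) (hcard : Nat.card C = q + 1) (h2 : (2 : F) ≠ 0)
    (θ : C →* ℂˣ) {b : G} (hb : b ∈ borel (F := F)) (hnc : b ∉ Subgroup.center G) :
    indT C θ b = 0 := by
  classical
  letI := Fintype.ofFinite G
  refine CharInd.indFun_eq_zero_of_forall (H := C) _ ?_
  intro x hx
  have hnc' : x⁻¹ * b * x ∉ Subgroup.center G := fun h => hnc (by
    simpa [mul_assoc] using Subgroup.Normal.conj_mem inferInstance _ h x)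
  obtain ⟨-, hr, -⟩ := torus_facts hC hcard h2 hx hnc'
  exact hr ((b : M2) 0 0) (by rw [trace_conj]; exact root_of_borel hb)

theorem ps_borel_split [DecidableEq F] (α : MulChar F ℂ) {b : G} (hb : (b : M2) 1 0 = 0)
    (ha : (b : M2) 0 0 ^ 2 ≠ 1) :
    ps α b = α ((b : M2) 0 0) + α ((b : M2) 1 1) := by
  classical
  letI := Fintype.ofFinite G
  have hd := Linear.slTwo_det b
  rw [hb, mul_zero, sub_zero] at hd
  have hne : (b : M2) 1 1 - (b : M2) 0 0 ≠ 0 := by
    intro e
    rw [sub_eq_zero] at e
    exact ha (by rw [sq]; nth_rewrite 2 [← e]; exact hd)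
  rw [ps, Spec.Principal.indFun_eq, hb, if_pos rfl]
  simp only [zero_mul, zero_add, mul_zero]
  congr 1
  rw [Finset.sum_eq_single ((b : M2) 0 1 / ((b : M2) 1 1 - (b : M2) 0 0)) (fun c _ hc => if_neg ?_)
    (by simp), if_pos (by field_simp; ring)]
  intro e
  exact hc (by field_simp; linear_combination e)

/-- `chi` on the upper triangular subgroup. -/
theorem chi_borel [DecidableEq F] (hC : IsCyclic C) (hcard : Nat.card C = q + 1)
    (h2 : (2 : F) ≠ 0) {α : MulChar F ℂ} {θ : C →* ℂˣ}
    (hα : ∀ c : C, (c : G) = negId F → (θ c : ℂ) = α (-1)) {b : G}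
    (hb : (b : M2) 1 0 = 0) :
    chi C α θ b = if (b : M2) 0 0 ^ 2 = 1 then
      (if (b : M2) 0 1 = 0 then (q : ℂ) - 1 else -1) * α ((b : M2) 0 0) else 0 := by
  classical
  have hd := Linear.slTwo_det b
  rw [hb, mul_zero, sub_zero] at hd
  have hbB : b ∈ borel (F := F) := mem_borel.2 hb
  simp only [chi, Pi.sub_apply, Pi.mul_apply, SL2Char.st]
  by_cases ha : (b : M2) 0 0 ^ 2 = 1
  · rw [if_pos ha]
    have hu : IsUnit ((b : M2) 0 0) := (left_ne_zero_of_mul_eq_one hd).isUnit
    have h11 : (b : M2) 1 1 = (b : M2) 0 0 :=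
      mul_left_cancel₀ (left_ne_zero_of_mul_eq_one hd) (by rw [hd, ← sq, ha])
    have hform : (b : M2) = !![(b : M2) 0 0, (b : M2) 0 1; 0, (b : M2) 0 0] := by
      ext i j; fin_cases i <;> fin_cases j <;> simp [hb, h11]
    rw [SL2Char.ps_apply_scalar_upper α hform, SL2Char.ps_apply_scalar_upper 1 hform,
      MulChar.one_apply hu]
    by_cases hx : (b : M2) 0 1 = 0
    · have hz : b ∈ Subgroup.center G := by
        rw [Linear.Classes.mem_center_iff_scalar]
        intro h
        refine h ((b : M2) 0 0) ?_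
        ext i j; fin_cases i <;> fin_cases j <;> simp [hb, h11, hx]
      rw [if_pos hx, if_pos hx]
      rcases center_cases hz with rfl | rfl
      · rw [show (1 : G) = ((1 : C) : G) from rfl, indT_center hcard θ 1 (by simp [one_mem])]
        simp only [map_one, Units.val_one, Subgroup.coe_one, Matrix.SpecialLinearGroup.coe_one,
          Matrix.one_apply_eq]
        ring
      · rw [show negId F = ((⟨negId F, negId_mem hC hcard h2⟩ : C) : G) from rfl,
          indT_center hcard θ _ hz, hα _ rfl]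
        simp only [negId, Matrix.cons_val', Matrix.cons_val_zero, Matrix.of_apply,
          Matrix.empty_val', Matrix.cons_val_fin_one]
        ring
    · have hnz : b ∉ Subgroup.center G := fun h => by
        rcases center_cases h with rfl | rfl <;> simp [negId] at hx
      rw [if_neg hx, if_neg hx, indT_borel hC hcard h2 θ hbB hnz]
      ring
  · rw [if_neg ha]
    have hnz : b ∉ Subgroup.center G := fun h => by
      rcases center_cases h with rfl | rfl <;> simp [negId] at ha
    have hu1 : IsUnit ((b : M2) 0 0) := (left_ne_zero_of_mul_eq_one hd).isUnit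
    have hu2 : IsUnit ((b : M2) 1 1) := (right_ne_zero_of_mul_eq_one hd).isUnit
    rw [indT_borel hC hcard h2 θ hbB hnz, ps_borel_split 1 hb ha, MulChar.one_apply hu1,
      MulChar.one_apply hu2]
    ring

theorem chi_torus (hC : IsCyclic C) (hcard : Nat.card C = q + 1) (h2 : (2 : F) ≠ 0)
    (α : MulChar F ℂ) (θ : C →* ℂˣ) (c : C) (hnc : (c : G) ∉ Subgroup.center G) :
    chi C α θ (c : G) = -((θ c : ℂ) + ((θ c)⁻¹ : ℂˣ)) := by
  obtain ⟨-, -, -, -, -, he⟩ := torus_facts hC hcard h2 c.2 hnc
  simp only [chi, Pi.sub_apply, Pi.mul_apply, ps_elliptic α he, indT_torus hC hcard h2 θ c hnc]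
  ring

theorem chi_one [DecidableEq F] (hC : IsCyclic C) (hcard : Nat.card C = q + 1)
    (h2 : (2 : F) ≠ 0) {α : MulChar F ℂ} {θ : C →* ℂˣ}
    (hα : ∀ c : C, (c : G) = negId F → (θ c : ℂ) = α (-1)) :
    chi C α θ 1 = (q : ℂ) - 1 := by
  rw [chi_borel hC hcard h2 hα (by simp)]
  simp

/-- `chi` is orthogonal to the whole principal series. -/
theorem classInner_chi_ps [Fintype G] (hC : IsCyclic C) (hcard : Nat.card C = q + 1)
    (h2 : (2 : F) ≠ 0) {α : MulChar F ℂ} {θ : C →* ℂˣ}
    (hα : ∀ c : C, (c : G) = negId F → (θ c : ℂ) = α (-1)) (β : MulChar F ℂ) :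
    classInner (chi C α θ) (ps β) = 0 := by
  classical
  rw [SL2Char.ps_eq, CharInd.classInner_indFun_right _ _ (chi_isClassFunction α θ)]
  unfold Cfsg.classInner
  rw [← Fintype.sum_bijective _ S2432.coords_bijective _ _ (fun _ => rfl), Fintype.sum_prod_type,
    Finset.sum_eq_zero, mul_zero]
  intro a _
  have hl : ∀ x : F, lift β (S2432.coords (a, x)) = β (a : F) := fun x => rfl
  simp only [hl, ← Finset.sum_mul]
  rw [mul_eq_zero]
  left
  rw [Finset.sum_congr rfl fun x _ => chi_borel (b := ((S2432.coords (a, x) : borel (F := F)) : G))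
    hC hcard h2 hα (by simp [S2432.coords])]
  simp only [S2432.coords, Matrix.cons_val', Matrix.cons_val_zero, Matrix.cons_val_one,
    Matrix.of_apply, Matrix.empty_val', Matrix.cons_val_fin_one]
  split_ifs
  · rw [← Finset.sum_mul, ← Finset.add_sum_erase _ _ (Finset.mem_univ (0 : F)), if_pos rfl,
      Finset.sum_congr rfl fun x hx => if_neg (Finset.ne_of_mem_erase hx), Finset.sum_const,
      Finset.card_erase_of_mem (Finset.mem_univ _), Finset.card_univ, nsmul_eq_mul,
      Nat.cast_sub Fintype.card_pos]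
    push_cast
    ring
  · simp

theorem classInner_chi_psSt [Fintype G] (hC : IsCyclic C) (hcard : Nat.card C = q + 1)
    (h2 : (2 : F) ≠ 0) {α : MulChar F ℂ} {θ : C →* ℂˣ}
    (hα : ∀ c : C, (c : G) = negId F → (θ c : ℂ) = α (-1)) :
    classInner (chi C α θ) (ps α * st F) = 2 := by
  classical
  have hst : IsClassFunction G (st F) := Char.isGeneralizedCharacter_isClassFunction
    (Char.isGeneralizedCharacter_of_irr SL2Char.st_irr)
  have e := CharInd.indFun_mul_res (H := borel (F := F)) (lift α) hst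
  rw [SL2Char.ps_eq, ← e, CharInd.classInner_indFun_right _ _ (chi_isClassFunction α θ)]
  unfold Cfsg.classInner
  rw [Nat.card_eq_fintype_card, ← Fintype.card_of_bijective (S2432.coords_bijective (F := F)),
    ← Fintype.sum_bijective _ S2432.coords_bijective _ _ (fun _ => rfl), Fintype.sum_prod_type]
  have hsum : ∀ a : Fˣ, ∑ x : F, chi C α θ ((S2432.coords (a, x) : borel (F := F)) : G) *
      conj (lift α (S2432.coords (a, x)) * st F ((S2432.coords (a, x) : borel (F := F)) : G)) =
      if (a : F) ^ 2 = 1 then (q : ℂ) * ((q : ℂ) - 1) else 0 := by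
    intro a
    split_ifs with ha
    · rw [Finset.sum_eq_single (0 : F)]
      · rw [chi_borel hC hcard h2 hα (by simp [S2432.coords])]
        have hform : (((S2432.coords (a, (0 : F)) : borel (F := F)) : G) : M2) =
            !![(a : F), 0; 0, (a : F)] := by
          have hainv : ((a⁻¹ : Fˣ) : F) = a := by
            rw [Units.val_inv_eq_inv_val]
            exact inv_eq_of_mul_eq_one_right (by rw [← sq, ha])
          ext i j; fin_cases i <;> fin_cases j <;> simp [S2432.coords, hainv]
        have hl : lift α (S2432.coords (a, (0 : F))) = α (a : F) := rfl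
        rw [hl]
        simp only [SL2Char.st, Pi.sub_apply]
        rw [SL2Char.ps_apply_scalar_upper 1 hform, if_pos rfl,
          MulChar.one_apply a.isUnit]
        simp only [S2432.coords, Matrix.cons_val', Matrix.cons_val_zero, Matrix.cons_val_one,
          Matrix.of_apply, Matrix.empty_val', Matrix.cons_val_fin_one, ha, if_true]
        have hαα : α (a : F) * conj (α (a : F)) = 1 := by
          have hsq : α (a : F) * α (a : F) = 1 := by rw [← map_mul, ← sq, ha, map_one]
          rcases mul_self_eq_one_iff.1 hsq with e | e <;> rw [e] <;> simp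
        simp only [map_mul, one_mul, add_sub_cancel_right, map_natCast]
        linear_combination ((q : ℂ) * ((q : ℂ) - 1)) * hαα
      · intro x _ hx
        have hform : (((S2432.coords (a, x) : borel (F := F)) : G) : M2) =
            !![(a : F), x; 0, (a : F)] := by
          have hainv : ((a⁻¹ : Fˣ) : F) = a := by
            rw [Units.val_inv_eq_inv_val]
            exact inv_eq_of_mul_eq_one_right (by rw [← sq, ha])
          ext i j; fin_cases i <;> fin_cases j <;> simp [S2432.coords, hainv]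
        simp only [SL2Char.st, Pi.sub_apply]
        rw [SL2Char.ps_apply_scalar_upper 1 hform, if_neg hx, MulChar.one_apply a.isUnit]
        simp
      · simp
    · refine Finset.sum_eq_zero fun x _ => ?_
      rw [chi_borel hC hcard h2 hα (by simp [S2432.coords])]
      simp [S2432.coords, ha]
  rw [Finset.sum_congr rfl fun a _ => hsum a, ← Finset.sum_filter, Finset.sum_const, nsmul_eq_mul,
    Fintype.card_prod, Fintype.card_units,
    show (Finset.univ.filter fun a : Fˣ => (a : F) ^ 2 = 1) = {1, -1} by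
      ext a
      simp only [Finset.mem_filter, Finset.mem_univ, true_and, Finset.mem_insert,
        Finset.mem_singleton, sq_eq_one_iff, Units.ext_iff, Units.val_one, Units.val_neg],
    Finset.card_pair fun e => h2 (by
      have := congrArg Units.val e
      simp only [Units.val_one, Units.val_neg] at this
      linear_combination this)]
  have hq : 1 < q := Fintype.one_lt_card
  have hq1 : (q : ℂ) ≠ 0 := by simp
  have hq2 : ((q : ℂ) - 1) ≠ 0 := sub_ne_zero.2 (by exact_mod_cast hq.ne')
  push_cast [Nat.cast_sub hq.le]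
  field_simp

theorem sum_hom (θ : C →* ℂˣ) [Fintype C] [Decidable (θ = 1)] :
    ∑ c : C, (θ c : ℂ) = if θ = 1 then (Fintype.card C : ℂ) else 0 := by
  split_ifs with h
  · subst h; simp
  · obtain ⟨c₀, hc₀⟩ : ∃ c₀, θ c₀ ≠ 1 := by
      by_contra hc
      exact h (MonoidHom.ext fun c => by_contra fun e => hc ⟨c, e⟩)
    have e : (θ c₀ : ℂ) * ∑ c : C, (θ c : ℂ) = ∑ c : C, (θ c : ℂ) := by
      rw [Finset.mul_sum]
      exact Fintype.sum_equiv (Equiv.mulLeft c₀) _ _ fun c => by simp
    have hne : (θ c₀ : ℂ) ≠ 1 := fun e' => hc₀ (Units.ext e')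
    exact (mul_left_eq_self₀.1 e).resolve_left hne

theorem classInner_chi_indT [DecidableEq F] [Fintype G] (hC : IsCyclic C)
    (hcard : Nat.card C = q + 1) (h2 : (2 : F) ≠ 0) {α : MulChar F ℂ} {θ : C →* ℂˣ}
    (hα : ∀ c : C, (c : G) = negId F → (θ c : ℂ) = α (-1)) [Decidable (θ⁻¹ * θ⁻¹ = 1)] :
    classInner (chi C α θ) (indT C θ) = if θ⁻¹ * θ⁻¹ = 1 then 0 else 1 := by
  classical
  rw [indT, Subsingleton.elim (Fintype.ofFinite G) ‹Fintype G›,
    CharInd.classInner_indFun_right _ _ (chi_isClassFunction α θ)]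
  unfold Cfsg.classInner
  have hu : ∀ c : C, (θ c : ℂ) * conj (θ c : ℂ) = 1 := fun c => by
    rw [conj_hom]; exact Units.mul_inv _
  have hterm : ∀ c : C, chi C α θ (c : G) * conj (θ c : ℂ) =
      -1 - ((θ⁻¹ * θ⁻¹ : C →* ℂˣ) c : ℂ) +
        if (c : G) ∈ Subgroup.center G then (q : ℂ) + 1 else 0 := by
    intro c
    have hsq : ((θ⁻¹ * θ⁻¹ : C →* ℂˣ) c : ℂ) = conj (θ c : ℂ) * conj (θ c : ℂ) := by
      rw [conj_hom]; simp
    rw [hsq]
    split_ifs with hz
    · have hcv : chi C α θ (c : G) = ((q : ℂ) - 1) * (θ c : ℂ) := by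
        rcases center_cases hz with e | e
        · rw [e, chi_one hC hcard h2 hα, show c = 1 from Subtype.ext e]
          simp
        · rw [e, chi_borel hC hcard h2 hα (by simp [negId]), hα c e]
          simp [negId]
      have hzz : c * c = 1 := by
        apply Subtype.ext
        rcases center_cases hz with e | e
        · simp [e]
        · rw [Subgroup.coe_mul, e, ← pow_two, SL2Char.negId_sq, Subgroup.coe_one]
      have h1 : (θ c : ℂ) * (θ c : ℂ) = 1 := by
        rw [← Units.val_mul, ← map_mul, hzz, map_one, Units.val_one]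
      rw [hcv]
      have := hu c
      linear_combination ((q : ℂ) + (θ c : ℂ) * conj (θ c : ℂ)) * this -
        conj (θ c : ℂ) * conj (θ c : ℂ) * h1
    · rw [chi_torus hC hcard h2 α θ c hz, ← conj_hom]
      linear_combination -(hu c)
  rw [Finset.sum_congr rfl fun c _ => hterm c, Finset.sum_add_distrib, Finset.sum_sub_distrib,
    sum_hom, ← Finset.sum_filter, Finset.sum_const, Finset.sum_const, Finset.card_univ]
  have hCc : Fintype.card C = q + 1 := by rw [← Nat.card_eq_fintype_card, hcard]
  have hz2 : (Finset.univ.filter fun c : C => (c : G) ∈ Subgroup.center G).card = 2 := by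
    rw [show (Finset.univ.filter fun c : C => (c : G) ∈ Subgroup.center G) =
      {1, ⟨negId F, negId_mem hC hcard h2⟩} from ?_, Finset.card_pair]
    · exact fun e => negId_ne_one h2 (congrArg Subtype.val e).symm
    · ext c
      simp only [Finset.mem_filter, Finset.mem_univ, true_and, Finset.mem_insert,
        Finset.mem_singleton]
      constructor
      · intro hz
        rcases center_cases hz with e | e
        · exact Or.inl (Subtype.ext e)
        · exact Or.inr (Subtype.ext e)
      · rintro (rfl | rfl)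
        · exact one_mem _
        · exact SL2Char.negId_center
  rw [hz2, hCc, Nat.card_eq_fintype_card, hCc]
  have hq1 : ((q : ℂ) + 1) ≠ 0 := by exact_mod_cast (Nat.succ_ne_zero q)
  split_ifs <;> simp only [nsmul_eq_mul] <;> push_cast <;> field_simp <;> ring

/-- The norm of `chi`. -/
theorem classInner_chi_self [DecidableEq F] [Fintype G] (hC : IsCyclic C)
    (hcard : Nat.card C = q + 1) (h2 : (2 : F) ≠ 0) {α : MulChar F ℂ} {θ : C →* ℂˣ}
    (hα : ∀ c : C, (c : G) = negId F → (θ c : ℂ) = α (-1)) [Decidable (θ⁻¹ * θ⁻¹ = 1)] :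
    classInner (chi C α θ) (chi C α θ) = if θ⁻¹ * θ⁻¹ = 1 then 2 else 1 := by
  conv_lhs => arg 2; rw [chi]
  rw [Char.classInner_sub_right, Char.classInner_sub_right, classInner_chi_psSt hC hcard h2 hα,
    classInner_chi_ps hC hcard h2 hα, classInner_chi_indT hC hcard h2 hα]
  split_ifs <;> norm_num

/-- A character of `Fˣ` with prescribed value at `-1`. -/
theorem exists_sign_char (hC : IsCyclic C) (hcard : Nat.card C = q + 1) (h2 : (2 : F) ≠ 0)
    (θ : C →* ℂˣ) :
    ∃ α : MulChar F ℂ, ∀ c : C, (c : G) = negId F → (θ c : ℂ) = α (-1) := by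
  classical
  set z : C := ⟨negId F, negId_mem hC hcard h2⟩
  have hzz : z * z = 1 := Subtype.ext (by
    rw [Subgroup.coe_mul, ← pow_two, SL2Char.negId_sq, Subgroup.coe_one])
  have h1 : (θ z : ℂ) * (θ z : ℂ) = 1 := by
    rw [← Units.val_mul, ← map_mul, hzz, map_one, Units.val_one]
  have hz : ∀ c : C, (c : G) = negId F → c = z := fun c h => Subtype.ext h
  rcases mul_self_eq_one_iff.1 h1 with e | e
  · exact ⟨1, fun c hc => by rw [hz c hc, e, MulChar.one_apply isUnit_one.neg]⟩
  · obtain ⟨α, hα⟩ := MulChar.exists_apply_ne_one_of_hasEnoughRootsOfUnity F ℂ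
      (a := (-1 : F)) (fun h => h2 (by linear_combination -h))
    refine ⟨α, fun c hc => ?_⟩
    rw [hz c hc, e]
    exact ((mul_self_eq_one_iff.1 (by rw [← map_mul, neg_one_mul, neg_neg, map_one])).resolve_left hα).symm

end values

end Cfsg.Agent.SL2Val
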