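import Cfsg.Agent.SL2Val.Identify
import Cfsg.Agent.SL2Val.Cuspidal
import Cfsg.Agent.Spec.TorusTwo
import Cfsg.Agent.Linear.Torus
import Cfsg.Agent.CharInd.Ito
import Cfsg.Agent.BlockNilp.InvClasses
import Cfsg.Agent.S2430
import Cfsg.Agent.S2431
import Cfsg.Agent.S2437
import Cfsg.Agent.BlkChar.PPrimeConstituent

/-!
# Degrees prime to `ℓ` for `SL(2, q)` and for the normalisers of its Sylow subgroups
-/

set_option autoImplicit false
set_option linter.unusedSectionVars false
set_option linter.style.haveILetI false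

namespace Cfsg.Agent.SL2Val

open Cfsg
open Cfsg.Agent.SL2Char (negId)
open scoped MatrixGroups commutatorElement

section general

universe u

variable {K : Type u} [Group K] [Finite K]

theorem charDegree_dvd_index (χ : IrrCharacter K) (A : Subgroup K) [A.Normal]
    (hA : ∀ a ∈ A, ∀ b ∈ A, a * b = b * a) : charDegree (χ : K → ℂ) ∣ A.index := by
  obtain ⟨n, ρ, hρ, he⟩ := χ.2
  haveI := hρ
  have h := CharInd.finrank_dvd_index_of_comm_normal ρ A hA
  have e : charDegree (χ : K → ℂ) = Module.finrank ℂ (Fin n → ℂ) := by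
    apply Char.charDegree_of_eq
    rw [← he, Representation.char_one]
  rwa [e]

theorem count_all (ℓ : ℕ) (h : ∀ χ : IrrCharacter K, ¬ ℓ ∣ charDegree (χ : K → ℂ)) :
    Nat.card {χ : IrrCharacter K // ¬ ℓ ∣ charDegree (χ : K → ℂ)} = Nat.card (ConjClasses K) := by
  rw [← Char.card_irr_eq_card_conjClasses]
  exact Nat.card_congr (Equiv.subtypeUnivEquiv h)

/-- A character of odd degree takes the value of its degree at a central involution which is a
commutator. -/
theorem apply_commutator_of_odd (χ : IrrCharacter K) (hodd : Odd (charDegree (χ : K → ℂ)))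
    {x y : K} (hz : ⁅x, y⁆ ∈ Subgroup.center K) (h2 : ⁅x, y⁆ * ⁅x, y⁆ = 1) :
    (χ : K → ℂ) ⁅x, y⁆ = (χ : K → ℂ) 1 := by
  obtain ⟨n, ρ, hρ, he⟩ := χ.2
  haveI := hρ
  haveI := Char.nontrivial_of_isIrreducible ρ
  obtain ⟨ω, hω⟩ := Char.exists_smul_of_mem_center ρ hz
  have hdeg : charDegree (χ : K → ℂ) = n := by
    apply Char.charDegree_of_eq
    rw [← he, Representation.char_one, Module.finrank_fin_fun]
  have hdet : ω ^ n = 1 := by
    have h1 : LinearMap.det (ρ ⁅x, y⁆) = 1 := by
      rw [commutatorElement_def]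
      simp only [map_mul]
      have hx : LinearMap.det (ρ x) * LinearMap.det (ρ x⁻¹) = 1 := by
        rw [← map_mul LinearMap.det, ← map_mul ρ, mul_inv_cancel, map_one, map_one]
      have hy : LinearMap.det (ρ y) * LinearMap.det (ρ y⁻¹) = 1 := by
        rw [← map_mul LinearMap.det, ← map_mul ρ, mul_inv_cancel, map_one, map_one]
      linear_combination LinearMap.det (ρ y) * LinearMap.det (ρ y⁻¹) * hx + hy
    rwa [hω, LinearMap.det_smul, LinearMap.det_id, mul_one, Module.finrank_fin_fun] at h1
  have hω2 : ω * ω = 1 := by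
    have h := congrArg ρ h2
    rw [map_mul, map_one, hω, ← Module.End.one_eq_id, smul_mul_smul_comm, mul_one] at h
    exact smul_left_injective ℂ (one_ne_zero (α := Module.End ℂ (Fin n → ℂ)))
      (h.trans (one_smul ℂ _).symm)
  rw [hdeg] at hodd
  have hω1 : ω = 1 := by
    obtain ⟨m, rfl⟩ := hodd
    rwa [pow_succ, pow_mul, sq, hω2, one_pow, one_mul] at hdet
  rw [← he]
  show LinearMap.trace ℂ _ (ρ ⁅x, y⁆) = LinearMap.trace ℂ _ (ρ 1)
  rw [hω, hω1, one_smul, map_one, Module.End.one_eq_id]

end general

theorem quaternion_index_commutator {n : ℕ} [NeZero n] (hn : Even n) :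
    (commutator (QuaternionGroup n)).index = 4 := by
  classical
  let c : ZMod (2 * n) →+* ZMod 2 := ZMod.castHom (dvd_mul_right 2 n) (ZMod 2)
  let f : QuaternionGroup n →* Multiplicative (ZMod 2 × ZMod 2) :=
    { toFun := fun x => match x with
        | QuaternionGroup.a i => Multiplicative.ofAdd (c i, 0)
        | QuaternionGroup.xa i => Multiplicative.ofAdd (c i, 1)
      map_one' := by
        show Multiplicative.ofAdd (c 0, (0 : ZMod 2)) = 1
        rw [map_zero]; rfl
      map_mul' := by
        have hneg : ∀ t : ZMod 2, -t = t := by decide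
        have hc : c (n : ZMod (2 * n)) = 0 := by
          rw [map_natCast, ZMod.natCast_eq_zero_iff]; exact even_iff_two_dvd.1 hn
        rintro (i | i) (j | j)
        · show Multiplicative.ofAdd (c (i + j), (0 : ZMod 2)) = Multiplicative.ofAdd (c i + c j, 0 + 0)
          rw [map_add, add_zero]
        · show Multiplicative.ofAdd (c (j - i), (1 : ZMod 2)) = Multiplicative.ofAdd (c i + c j, 0 + 1)
          rw [map_sub, zero_add, sub_eq_add_neg, hneg, add_comm]
        · show Multiplicative.ofAdd (c (i + j), (1 : ZMod 2)) = Multiplicative.ofAdd (c i + c j, 1 + 0)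
          rw [map_add, add_zero]
        · show Multiplicative.ofAdd (c ((n : ZMod (2 * n)) + j - i), (0 : ZMod 2)) =
            Multiplicative.ofAdd (c i + c j, 1 + 1)
          rw [map_sub, map_add, hc, zero_add, sub_eq_add_neg, hneg, add_comm,
            show (1 + 1 : ZMod 2) = 0 from rfl] }
  have hsurj : Function.Surjective f := by
    intro v
    obtain ⟨⟨s, t⟩, rfl⟩ := Multiplicative.ofAdd.surjective v
    obtain ⟨i, rfl⟩ := ZMod.castHom_surjective (dvd_mul_right 2 n) s
    fin_cases t
    · exact ⟨QuaternionGroup.a i, rfl⟩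
    · exact ⟨QuaternionGroup.xa i, rfl⟩
  have hker : f.ker = commutator (QuaternionGroup n) := by
    refine le_antisymm ?_ (Abelianization.commutator_subset_ker f)
    have h2 : QuaternionGroup.a (2 : ZMod (2 * n)) ∈ commutator (QuaternionGroup n) := by
      have h := Subgroup.commutator_mem_commutator
        (Subgroup.mem_top (QuaternionGroup.a (1 : ZMod (2 * n))))
        (Subgroup.mem_top (QuaternionGroup.xa (0 : ZMod (2 * n))))
      rw [commutator_def]
      convert h using 1
      show _ = QuaternionGroup.a 1 * QuaternionGroup.xa 0 * QuaternionGroup.a (-1) *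
        QuaternionGroup.xa ((n : ZMod (2 * n)) + 0)
      rw [QuaternionGroup.a_mul_xa, QuaternionGroup.xa_mul_a, QuaternionGroup.xa_mul_xa]
      congr 1
      have h0 : (2 : ZMod (2 * n)) * n = 0 := by exact_mod_cast ZMod.natCast_self (2 * n)
      linear_combination -h0
    rintro (i | i) hi
    · have hci : c i = 0 := by
        have := congrArg (fun v => (Multiplicative.toAdd v).1) (MonoidHom.mem_ker.1 hi)
        simpa [f] using this
      obtain ⟨m, rfl⟩ : ∃ m : ℕ, (m : ZMod (2 * n)) = i := ⟨i.val, ZMod.natCast_zmod_val i⟩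
      rw [map_natCast, ZMod.natCast_eq_zero_iff] at hci
      obtain ⟨j, rfl⟩ := hci
      have : QuaternionGroup.a ((2 * j : ℕ) : ZMod (2 * n)) = QuaternionGroup.a (2 : ZMod (2 * n)) ^ j := by
        rw [show (2 : ZMod (2 * n)) = ((2 : ℕ) : ZMod (2 * n)) by norm_num, ← QuaternionGroup.a_one_pow,
          ← QuaternionGroup.a_one_pow, ← pow_mul]
      rw [this]
      exact pow_mem h2 j
    · exfalso
      have := congrArg (fun v => (Multiplicative.toAdd v).2) (MonoidHom.mem_ker.1 hi)
      simp [f] at this
  rw [← hker, Subgroup.index_ker, MonoidHom.range_eq_top.2 hsurj, Subgroup.card_top,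
    Nat.card_congr Multiplicative.toAdd, Nat.card_prod, Nat.card_zmod]

variable {F : Type*} [Field F] [Fintype F]

local notation "G" => SL(2, F)
local notation "q" => Fintype.card F
local notation "M2" => Matrix (Fin 2) (Fin 2) F

/-- The degree census of `SL(2, q)`, `q` odd. -/
theorem count_degrees (hodd : Odd q) (P : ℕ → Prop) [DecidablePred P] :
    Nat.card {χ : IrrCharacter G // P (charDegree (χ : G → ℂ))} =
      (if P 1 then 1 else 0) + (if P q then 1 else 0) +
        (if P (q + 1) then (q - 3) / 2 else 0) + (if P ((q + 1) / 2) then 2 else 0) +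
        (if P ((q - 1) / 2) then 2 else 0) + (if P (q - 1) then (q - 1) / 2 else 0) := by
  classical
  obtain ⟨ν, hν⟩ := FiniteField.exists_nonsquare (F := F)
    (fun e => by have := FiniteField.even_card_of_char_two e; have := Nat.odd_iff.1 hodd; omega)
  obtain ⟨H, D, W, hH, hD, hW, kH, kD, kW, hall⟩ := SL2Char.odd_classification hν
  have hps := SL2Char.card_psSet_odd hν
  have hHD : Disjoint H D := Finset.disjoint_left.2 fun χ h h' => by
    have := (kH χ h).2.1; have := (kD χ h').2.1; omega
  have hHDW : Disjoint (H ∪ D) W := Finset.disjoint_left.2 fun χ h h' => by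
    rcases Finset.mem_union.1 h with h | h
    · have := (kH χ h).2.1; have := (kW χ h').2.1; omega
    · have := (kD χ h).2.2.1; have := (kW χ h').2.2.1; omega
  have hrest : SL2Char.rest F = H ∪ D ∪ W := by
    ext χ
    constructor
    · intro h
      obtain ⟨h1, h2, h3⟩ := SL2Char.mem_rest.1 h
      simp only [Finset.mem_union]
      have := hall χ
      tauto
    · simp only [Finset.mem_union]
      rintro ((h | h) | h)
      exacts [(kH χ h).1, (kD χ h).1, (kW χ h).1]
  rw [Nat.card_eq_fintype_card, Fintype.card_subtype, Finset.card_filter, SL2Char.sum_split,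
    SL2Char.charDegree_chiOne_odd hν, SL2Char.charDegree_chiSt_odd hν, hrest,
    Finset.sum_union hHDW, Finset.sum_union hHD,
    Finset.sum_congr rfl (g := fun _ => if P (q + 1) then 1 else 0) fun χ h => by
      rw [SL2Char.charDegree_psSet_odd hν h],
    Finset.sum_congr (s₁ := H) rfl (g := fun _ => if P ((q + 1) / 2) then 1 else 0) fun χ h => by
      rw [show charDegree (χ : G → ℂ) = (q + 1) / 2 by have := (kH χ h).2.2.2; omega],
    Finset.sum_congr (s₁ := D) rfl (g := fun _ => if P ((q - 1) / 2) then 1 else 0) fun χ h => by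
      rw [show charDegree (χ : G → ℂ) = (q - 1) / 2 by have := (kD χ h).2.2.2; omega],
    Finset.sum_congr (s₁ := W) rfl (g := fun _ => if P (q - 1) then 1 else 0) fun χ h => by
      rw [(kW χ h).2.2.2],
    Finset.sum_const, Finset.sum_const, Finset.sum_const, Finset.sum_const, hH, hD]
  simp only [smul_eq_mul, mul_ite, mul_one, mul_zero]
  have e1 : (SL2Char.psSet F).card = (q - 3) / 2 := by omega
  have e2 : W.card = (q - 1) / 2 := by omega
  rw [e1, e2]
  ring

/-- For an odd prime dividing `q - 1` or `q + 1`, the normaliser of a Sylow subgroup. -/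
theorem torus_normalizer (hodd : Odd q) {ℓ : ℕ} [Fact ℓ.Prime] (hℓ : ℓ ≠ 2) {n : ℕ}
    (hn : n = q - 1 ∧ ℓ ∣ q - 1 ∨ n = q + 1 ∧ ℓ ∣ q + 1) (P : Sylow ℓ G) :
    2 * Nat.card {ψ : IrrCharacter (Subgroup.normalizer ((P : Subgroup G) : Set G)) //
        ¬ ℓ ∣ charDegree (ψ : Subgroup.normalizer ((P : Subgroup G) : Set G) → ℂ)} = n + 6 := by
  classical
  have h2 : (2 : F) ≠ 0 := Linear.two_ne_zero_of_odd_card hodd
  have hl := (Fact.out : ℓ.Prime)
  set C := Subgroup.centralizer ((P : Subgroup G) : Set G) with hCdef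
  set N := Subgroup.normalizer ((P : Subgroup G) : Set G) with hNdef
  obtain ⟨hCn, hCc, hNn⟩ : Nat.card C = n ∧ IsCyclic C ∧ Nat.card N = 2 * n := by
    obtain ⟨e1, e2⟩ := S2430.result hodd ℓ hℓ P
    rcases hn with ⟨rfl, hd⟩ | ⟨rfl, hd⟩
    exacts [e1 hd, e2 hd]
  have hn3 : 3 ≤ n := by
    have := hl.two_le
    have := Fintype.one_lt_card (α := F)
    rcases hn with ⟨rfl, hd⟩ | ⟨rfl, hd⟩
    · have := Nat.le_of_dvd (by omega) hd
      omega
    · omega
  obtain ⟨g, hg⟩ := hCc.exists_generator
  have hgz : (g : G) ∉ Subgroup.center G := by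
    intro hz
    have ho : orderOf g = n := hCn ▸ orderOf_eq_card_of_forall_mem_zpowers hg
    have : g ^ 2 = 1 := Subtype.ext (by
      rcases center_cases hz with e | e
      · rw [Subgroup.coe_pow, e, one_pow, Subgroup.coe_one]
      · rw [Subgroup.coe_pow, e, SL2Char.negId_sq, Subgroup.coe_one])
    have := Nat.le_of_dvd (by norm_num) (orderOf_dvd_of_pow_eq_one this)
    omega
  have hns : Linear.Classes.Nonscalar ((g : G) : M2) := by
    by_contra h; exact hgz (Linear.Classes.mem_center_iff_scalar.2 h)
  have hle : C ≤ Subgroup.centralizer ({(g : G)} : Set G) := by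
    intro x hx
    obtain ⟨j, hj⟩ := hg ⟨x, hx⟩
    rw [Subgroup.mem_centralizer_singleton_iff,
      show x = ((g ^ j : C) : G) from (congrArg Subtype.val hj).symm, Subgroup.coe_zpow]
    exact (Commute.zpow_self _ _).eq
  have hdvd : n ∣ Nat.card (Subgroup.centralizer ({(g : G)} : Set G)) :=
    hCn ▸ Subgroup.card_dvd_of_le hle
  have hq3 : 3 ≤ q := by
    have := Nat.odd_iff.1 hodd
    have := Fintype.one_lt_card (α := F)
    omega
  have hqodd := Nat.odd_iff.1 hodd
  obtain ⟨hcard, ht⟩ : Nat.card (Subgroup.centralizer ({(g : G)} : Set G)) = n ∧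
      ((g : G) : M2).trace ^ 2 ≠ 4 := by
    have hne : ∀ {a b : ℕ}, a ∣ b → b - a < a → a ≤ b → a = b := fun {a b} h h' hab => by
      obtain ⟨k, rfl⟩ := h
      rcases k with _ | _ | k
      · omega
      · simp
      · exfalso
        have e : a * (k + 2) - a = a * (k + 1) := by
          rw [Nat.mul_succ, Nat.add_sub_cancel]
        rw [e] at h'
        have := Nat.le_mul_of_pos_right a (show 0 < k + 1 by omega)
        omega
    rcases Linear.Classes.centralizer_SL_cases hns with ⟨hr, hc⟩ | ⟨⟨r, hr, htr⟩, hc⟩ | ⟨-, hc⟩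
    · refine ⟨?_, ?_⟩
      · rcases hn with ⟨e, -⟩ | ⟨e, -⟩
        · exfalso
          rw [hc, e] at hdvd
          have h' := Nat.dvd_sub hdvd (dvd_refl (q - 1))
          have := Nat.le_of_dvd (by omega) h'
          omega
        · rw [hc, e]
      · have h := (Linear.Classes.discr_of_no_root hr).resolve_left h2
        rwa [mul_one] at h
    · refine ⟨?_, ?_⟩
      · rcases hn with ⟨e, -⟩ | ⟨e, -⟩
        · rw [hc, e]
        · exfalso
          rw [hc, e] at hdvd
          have := Nat.le_of_dvd (by omega) hdvd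
          omega
      · have h := (Linear.Classes.discr_of_root hr htr).resolve_left h2
        rwa [mul_one] at h
    · exfalso
      rw [hc, Linear.Classes.card_sq_one_odd h2] at hdvd
      rcases hn with ⟨e, hd⟩ | ⟨e, hd⟩
      · rw [e] at hdvd hn3
        have h' := Nat.dvd_sub hdvd (dvd_mul_left (q - 1) 2)
        rw [show 2 * q - 2 * (q - 1) = 2 by omega] at h'
        have := Nat.le_of_dvd (by omega) h'
        omega
      · rw [e] at hdvd
        have h' := Nat.dvd_sub (dvd_mul_left (q + 1) 2) hdvd
        rw [show 2 * (q + 1) - 2 * q = 2 by omega] at h'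
        have := Nat.le_of_dvd (by omega) h'
        omega
  have hCeq : C = Subgroup.centralizer ({(g : G)} : Set G) :=
    Subgroup.eq_of_le_of_card_ge hle (by rw [hcard, hCn])
  obtain ⟨hNC, hcl, -⟩ := Spec.Two.natCard_normalizer_torus h2 (g : G) ht
  rw [← hCeq] at hNC hcl
  have hNeq : N = Subgroup.normalizer (C : Set G) :=
    Subgroup.eq_of_le_of_card_ge (S2430.normalizer_le_normalizer_centralizer _)
      (by rw [hNn, hNC, hCn])
  rw [count_all]
  · rw [hNeq, hcl, hCn]
  · intro ψ hψ
    haveI : (C.subgroupOf N).Normal := Subgroup.normal_subgroupOf_of_le_normalizer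
      (S2430.normalizer_le_normalizer_centralizer _)
    have hCN : C ≤ N := Subgroup.centralizer_le_normalizer _
    haveI := hCc
    letI := hCc.commGroup
    have h := charDegree_dvd_index ψ (C.subgroupOf N) fun a ha b hb => Subtype.ext
      (show (a : G) * (b : G) = b * a from
        congrArg Subtype.val (mul_comm (⟨(a : G), ha⟩ : C) ⟨(b : G), hb⟩))
    have hi : (C.subgroupOf N).index = 2 := by
      have e := (C.subgroupOf N).card_mul_index
      rw [Nat.card_congr (Subgroup.subgroupOfEquivOfLe hCN).toEquiv, hCn, hNn, mul_comm 2 n] at e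
      exact Nat.eq_of_mul_eq_mul_left (by omega) e
    rw [hi] at h
    exact hℓ ((Nat.prime_dvd_prime_iff_eq hl Nat.prime_two).1 (hψ.trans h))

theorem normalizer_upperSL :
    Subgroup.normalizer ((Linear.upperSL (F := F)) : Set G) = Spec.Principal.borel := by
  ext g
  rw [Spec.Principal.mem_borel]
  have hd := Linear.slTwo_det g
  constructor
  · intro hg
    have h := (Subgroup.mem_normalizer_iff.1 hg (CentralExt.SL2.upper 1)).1
      (Linear.mem_upperSL.2 ⟨by simp [CentralExt.SL2.upper], by simp [CentralExt.SL2.upper],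
        by simp [CentralExt.SL2.upper]⟩)
    have h10 := (Linear.mem_upperSL.1 h).1
    rw [Matrix.SpecialLinearGroup.coe_mul, Matrix.SpecialLinearGroup.coe_mul,
      Matrix.SpecialLinearGroup.coe_inv] at h10
    simp [CentralExt.SL2.upper, Matrix.SpecialLinearGroup.coe_mul, Matrix.SpecialLinearGroup.coe_inv,
      Matrix.adjugate_fin_two, Matrix.mul_apply, Fin.sum_univ_two] at h10
    have : (g : M2) 1 0 * (g : M2) 1 0 = 0 := by linear_combination -h10
    exact mul_self_eq_zero.1 this
  · intro hg
    rw [hg, mul_zero, sub_zero] at hd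
    rw [Subgroup.mem_normalizer_iff]
    intro y
    simp only [Linear.mem_upperSL]
    simp [Matrix.SpecialLinearGroup.coe_mul, Matrix.SpecialLinearGroup.coe_inv, Matrix.adjugate_fin_two,
      Matrix.mul_apply, Fin.sum_univ_two, hg]
    have h00 : (g : M2) 0 0 ≠ 0 := left_ne_zero_of_mul_eq_one hd
    have h11 : (g : M2) 1 1 ≠ 0 := right_ne_zero_of_mul_eq_one hd
    constructor
    · rintro ⟨a1, a2, a3⟩
      simp [a1, a2, a3]
      constructor <;> linear_combination hd
    · rintro ⟨b1, b2, b3⟩
      have a1 : (y : M2) 1 0 = 0 := by simpa [h11] using b1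
      refine ⟨a1, ?_, ?_⟩
      · rw [a1] at b2
        linear_combination b2 - (y : M2) 0 0 * hd
      · rw [a1] at b3
        linear_combination b3 - (y : M2) 1 1 * hd

/-- The normaliser of a Sylow subgroup in the defining characteristic. -/
theorem borel_normalizer (hodd : Odd q) {ℓ : ℕ} [hl : Fact ℓ.Prime] (hdvd : ℓ ∣ q) (P : Sylow ℓ G) :
    Nat.card {ψ : IrrCharacter (Subgroup.normalizer ((P : Subgroup G) : Set G)) //
        ¬ ℓ ∣ charDegree (ψ : Subgroup.normalizer ((P : Subgroup G) : Set G) → ℂ)} = q + 3 := by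
  classical
  have hq : 1 < q := Fintype.one_lt_card
  have hpow : ∃ k, q = ℓ ^ k := by
    obtain ⟨p, hp⟩ := CharP.exists F
    obtain ⟨k, hpp, hk⟩ := FiniteField.card F p
    rw [hk] at hdvd
    exact ⟨k, by rw [hk, (Nat.prime_dvd_prime_iff_eq hl.out hpp).1 (hl.out.dvd_of_dvd_pow hdvd)]⟩
  obtain ⟨k, hk⟩ := hpow
  have hU : IsPGroup ℓ (Linear.upperSL (F := F)) :=
    IsPGroup.of_card (n := k) (by rw [Linear.card_upperSL, Nat.card_eq_fintype_card, hk])
  have hn1 : ¬ ℓ ∣ q - 1 := fun h => by
    have := Nat.le_of_dvd (by omega) (Nat.dvd_sub hdvd h)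
    have := hl.out.two_le
    omega
  have hn2 : ¬ ℓ ∣ q + 1 := fun h => hl.out.not_dvd_one ((Nat.dvd_add_right hdvd).1 h)
  have hidx : ¬ ℓ ∣ (Linear.upperSL (F := F)).index := by
    have h := (Linear.upperSL (F := F)).card_mul_index
    rw [Linear.card_upperSL, Nat.card_eq_fintype_card, Linear.card_SL_two, mul_assoc] at h
    rw [Nat.eq_of_mul_eq_mul_left (by omega) h]
    intro h'
    rcases hl.out.dvd_mul.1 h' with h' | h'
    exacts [hn1 h', hn2 h']
  obtain ⟨g, hg⟩ := MulAction.exists_smul_eq G (hU.toSylow hidx) P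
  have hPU : (P : Subgroup G) = (Linear.upperSL (F := F)).map (MulAut.conj g).toMonoidHom := by
    rw [← hg]; rfl
  set N := Subgroup.normalizer ((P : Subgroup G) : Set G) with hN
  have hNB : N = (Spec.Principal.borel (F := F)).map (MulAut.conj g).toMonoidHom := by
    rw [hN, hPU, Subgroup.coe_map, ← normalizer_upperSL, Subgroup.map_equiv_normalizer_eq]
    rfl
  have e : (Spec.Principal.borel (F := F)) ≃* N :=
    (Subgroup.equivMapOfInjective _ _ (MulAut.conj g).injective).trans (MulEquiv.subgroupCongr hNB.symm)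
  rw [count_all]
  · rw [← Char.card_irr_eq_card_conjClasses, ← BlockNilp.card_irr_congr e,
      Char.card_irr_eq_card_conjClasses]
    exact S2437.result hodd
  · intro ψ hψ
    have hPN : (P : Subgroup G) ≤ N := Subgroup.le_normalizer
    haveI : ((P : Subgroup G).subgroupOf N).Normal :=
      Subgroup.normal_subgroupOf_of_le_normalizer le_rfl
    have hcomm : ∀ a ∈ (P : Subgroup G), ∀ b ∈ (P : Subgroup G), a * b = b * a := by
      intro a ha b hb
      rw [hPU] at ha hb
      obtain ⟨a, ha, rfl⟩ := ha
      obtain ⟨b, hb, rfl⟩ := hb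
      rw [← map_mul, ← map_mul, Linear.upperSL_eq ha, Linear.upperSL_eq hb]
      congr 1
      refine Linear.slTwo_ext ?_ ?_ ?_ ?_ <;>
        rw [Matrix.SpecialLinearGroup.coe_mul, Matrix.SpecialLinearGroup.coe_mul] <;>
        simp [Matrix.SpecialLinearGroup.transvection, Matrix.transvection, Matrix.mul_apply,
          Fin.sum_univ_two, add_comm]
    have h := charDegree_dvd_index ψ ((P : Subgroup G).subgroupOf N)
      fun a ha b hb => Subtype.ext (hcomm _ ha _ hb)
    refine hidx (dvd_trans (hψ.trans h) ?_)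
    rw [← Subgroup.relIndex]
    refine dvd_trans (Dvd.intro _ (Subgroup.relIndex_mul_index hPN)) ?_
    rw [hPU]
    exact dvd_of_eq (Subgroup.index_map_equiv _ (MulAut.conj g))

/-- For `ℓ = 2` there are four characters of odd degree. -/
theorem two_normalizer (hodd : Odd q) (S : Sylow 2 G) :
    Nat.card {ψ : IrrCharacter (Subgroup.normalizer ((S : Subgroup G) : Set G)) //
        ¬ 2 ∣ charDegree (ψ : Subgroup.normalizer ((S : Subgroup G) : Set G) → ℂ)} = 4 := by
  classical
  have h2 : (2 : F) ≠ 0 := Linear.two_ne_zero_of_odd_card hodd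
  obtain ⟨k, hk, ⟨e⟩⟩ := Linear.sylow_two_SL_two_quaternion hodd S
  haveI : NeZero (2 ^ k) := ⟨by positivity⟩
  haveI : Fact (Nat.Prime 2) := ⟨Nat.prime_two⟩
  set N := Subgroup.normalizer ((S : Subgroup G) : Set G) with hN
  obtain ⟨hCS, h17, h35⟩ := S2431.result hodd S
  have hqodd := Nat.odd_iff.1 hodd
  have hlin : Nat.card {ψ : IrrCharacter N // charDegree (ψ : N → ℂ) = 1} = (commutator N).index := by
    rw [← Char.card_linear_irr]
    refine Nat.card_congr (Equiv.subtypeEquivRight fun ψ => ?_)
    rw [(Char.irr_charDegree_spec ψ.2).2, Nat.cast_eq_one]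
  rcases (show (q % 8 = 1 ∨ q % 8 = 7) ∨ (q % 8 = 3 ∨ q % 8 = 5) by omega) with h8 | h8
  · -- the normaliser is the Sylow subgroup itself
    have hNS := h17 h8
    have hNS' : N = (S : Subgroup G) := hNS
    have eN : N ≃* QuaternionGroup (2 ^ k) := (MulEquiv.subgroupCongr hNS').trans e
    have hcard : Nat.card N = 4 * 2 ^ k := by
      rw [Nat.card_congr eN.toEquiv, Nat.card_eq_fintype_card, QuaternionGroup.card]
    have hiff : ∀ ψ : IrrCharacter N,
        ¬ 2 ∣ charDegree (ψ : N → ℂ) ↔ charDegree (ψ : N → ℂ) = 1 := by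
      intro ψ
      have h := BlkChar.irr_charDegree_dvd_card ψ
      rw [hcard, show 4 * 2 ^ k = 2 ^ (k + 2) by ring] at h
      obtain ⟨j, -, hj⟩ := (Nat.dvd_prime_pow Nat.prime_two).1 h
      rw [hj]
      rcases j with _ | j
      · simp
      · simp only [pow_succ', dvd_mul_right, not_true_eq_false, false_iff]
        have := Nat.one_le_two_pow (n := j)
        omega
    rw [Nat.card_congr (Equiv.subtypeEquivRight hiff), hlin,
      ← quaternion_index_commutator (n := 2 ^ k) (Nat.even_pow.2 ⟨even_two, by omega⟩)]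
    have hmap : (commutator N).map (eN : N →* QuaternionGroup (2 ^ k)) =
        commutator (QuaternionGroup (2 ^ k)) := by
      rw [commutator_def, Subgroup.map_commutator, Subgroup.map_top_of_surjective _ eN.surjective,
        ← commutator_def]
    rw [← hmap]
    exact (Subgroup.index_map_equiv _ eN).symm
  · -- the normaliser has order 24
    have hk1 : 2 ^ k = 2 := by
      have hdvd : 4 * 2 ^ k ∣ q * ((q - 1) * (q + 1)) := by
        rw [← mul_assoc, ← Linear.card_SL_two]
        have h := (S : Subgroup G).card_subgroup_dvd_card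
        rwa [Nat.card_congr e.toEquiv, Nat.card_eq_fintype_card, QuaternionGroup.card] at h
      by_contra hne
      have hk2 : 2 ≤ k := by
        rcases k with _ | _ | k
        · omega
        · simp at hne
        · omega
      have h16 : 16 ∣ 4 * 2 ^ k := by
        obtain ⟨j, rfl⟩ := Nat.exists_eq_add_of_le hk2
        exact ⟨2 ^ j, by ring⟩
      have h := (Nat.Coprime.dvd_mul_left (Nat.Coprime.pow_left 4
        (Nat.prime_two.coprime_iff_not_dvd.2 (by omega)))).1 (h16.trans hdvd)
      obtain ⟨m, hm⟩ : ∃ m, q = 8 * m + 3 ∨ q = 8 * m + 5 := ⟨q / 8, by omega⟩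
      rcases hm with hm | hm <;> rw [hm] at h
      · rw [show (8 * m + 3 - 1) = 8 * m + 2 by omega,
          show (8 * m + 2) * (8 * m + 3 + 1) = 16 * (4 * m * m + 3 * m) + 8 by ring] at h
        omega
      · rw [show (8 * m + 5 - 1) = 8 * m + 4 by omega,
          show (8 * m + 4) * (8 * m + 5 + 1) = 16 * (4 * m * m + 5 * m + 1) + 8 by ring] at h
        omega
    have hS8 : Nat.card (S : Subgroup G) = 8 := by
      rw [Nat.card_congr e.toEquiv, Nat.card_eq_fintype_card, QuaternionGroup.card, hk1]
    have hN24 : Nat.card N = 24 := by rw [hN, h35 h8, hS8]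
    have hSN : (S : Subgroup G) ≤ N := Subgroup.le_normalizer
    set S' := (S : Subgroup G).subgroupOf N with hS'
    haveI : S'.Normal := Subgroup.normal_subgroupOf_of_le_normalizer le_rfl
    have hS'8 : Nat.card S' = 8 := by
      rw [hS', Nat.card_congr (Subgroup.subgroupOfEquivOfLe hSN).toEquiv, hS8]
    have hS'i : S'.index = 3 := by
      have := S'.card_mul_index
      rw [hS'8, hN24] at this
      omega
    haveI : Fact (Nat.Prime 3) := ⟨Nat.prime_three⟩
    -- a commutator equal to the central involution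
    obtain ⟨x, y, hzxy⟩ : ∃ x y : N, ((⁅x, y⁆ : N) : G) = negId F := by
      set x : G := ((e.symm (QuaternionGroup.a 1)) : G) with hxdef
      set y : G := ((e.symm (QuaternionGroup.xa 0)) : G) with hydef
      refine ⟨⟨x, hSN (e.symm _).2⟩, ⟨y, hSN (e.symm _).2⟩, ?_⟩
      set u : QuaternionGroup (2 ^ k) :=
        ⁅(QuaternionGroup.a 1 : QuaternionGroup (2 ^ k)), QuaternionGroup.xa 0⁆ with hu
      have hu1 : u ≠ 1 ∧ u * u = 1 := by
        rw [hu]
        revert hk1
        generalize 2 ^ k = m
        rintro rfl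
        decide
      show ⁅x, y⁆ = negId F
      have hxy : ⁅x, y⁆ = ((e.symm u : (S : Subgroup G)) : G) := by
        rw [hu, map_commutatorElement]; rfl
      rw [hxy]
      have hne : ((e.symm u : (S : Subgroup G)) : G) ≠ 1 := by
        intro h
        exact hu1.1 (e.symm.injective (Subtype.ext (by rw [h, map_one, Subgroup.coe_one])))
      have hsq : ((e.symm u : (S : Subgroup G)) : G) * ((e.symm u : (S : Subgroup G)) : G) = 1 := by
        rw [← Subgroup.coe_mul, ← map_mul, hu1.2, map_one, Subgroup.coe_one]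
      apply Subtype.ext
      rw [Linear.eq_neg_one_of_mul_self h2 hne hsq]
      ext i j
      fin_cases i <;> fin_cases j <;> simp [negId]
    set z : N := ⁅x, y⁆ with hz
    have hzc : z ∈ Subgroup.center N := Subgroup.mem_center_iff.2 fun w => Subtype.ext (by
      rw [Subgroup.coe_mul, Subgroup.coe_mul, hzxy]
      exact Subgroup.mem_center_iff.1 SL2Char.negId_center (w : G))
    have hz2 : z * z = 1 := Subtype.ext (by
      rw [Subgroup.coe_mul, hzxy, ← pow_two, SL2Char.negId_sq, Subgroup.coe_one])
    have hz1 : z ≠ 1 := fun h => negId_ne_one h2 (by rw [← hzxy, h, Subgroup.coe_one])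
    obtain ⟨h, hh⟩ : ∃ h : N, orderOf h = 3 :=
      exists_prime_orderOf_dvd_card' 3 (by rw [hN24]; norm_num)
    -- the derived subgroup is `S`
    have hDle : commutator N ≤ S' := by
      refine Subgroup.Normal.quotient_commutative_iff_commutator_le.1 ?_
      haveI : IsCyclic (N ⧸ S') := isCyclic_of_prime_card (p := 3) (by
        rw [← Subgroup.index_eq_card, hS'i])
      letI := IsCyclic.commGroup (α := N ⧸ S')
      exact ⟨⟨fun a b => mul_comm a b⟩⟩
    have hD : (commutator N).index = 3 := by
      suffices commutator N = S' by rw [this, hS'i]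
      by_contra hne
      have hD4 : Nat.card (commutator N) ≤ 4 := by
        have hd : Nat.card (commutator N) ∣ 2 ^ 3 := by
          have := Subgroup.card_dvd_of_le hDle; rwa [hS'8] at this
        have hlt : Nat.card (commutator N) ≠ 8 := fun e' =>
          hne (Subgroup.eq_of_le_of_card_ge hDle (by rw [e', hS'8]))
        obtain ⟨j, hj, e'⟩ := (Nat.dvd_prime_pow Nat.prime_two).1 hd
        rw [e'] at hlt ⊢
        interval_cases j <;> first | (norm_num at hlt; done) | norm_num
      have hzD : z ∈ commutator N := by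
        rw [hz, commutator_def]
        exact Subgroup.commutator_mem_commutator (Subgroup.mem_top x) (Subgroup.mem_top y)
      have hhh : h ^ 3 = 1 := by rw [← hh]; exact pow_orderOf_eq_one h
      have hfix : ∀ d ∈ commutator N, h * d * h⁻¹ = d := by
        intro d hd
        by_contra hne'
        haveI : (commutator N).Normal := inferInstance
        set d1 := h * d * h⁻¹ with hd1
        set d2 := h * d1 * h⁻¹ with hd2
        have hd1m : d1 ∈ commutator N := this.conj_mem d hd h
        have hd2m : d2 ∈ commutator N := this.conj_mem d1 hd1m h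
        have e3 : h * d2 * h⁻¹ = d := by
          calc h * d2 * h⁻¹ = h ^ 3 * d * (h ^ 3)⁻¹ := by rw [hd2, hd1, pow_succ, pow_two]; group
            _ = d := by rw [hhh]; group
        have n12 : d1 ≠ d2 := fun e' => hne' (by
          have : h * d * h⁻¹ = h * d1 * h⁻¹ := e'
          exact (mul_left_cancel (mul_right_cancel this)).symm)
        have n02 : d ≠ d2 := fun e' => hne' (by
          have : h * d * h⁻¹ = h * d2 * h⁻¹ := by rw [← e']
          rw [e3] at this
          exact this)
        have hzfix : h * z * h⁻¹ = z := by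
          rw [Subgroup.mem_center_iff.1 hzc h, mul_inv_cancel_right]
        have nz : ∀ t : N, h * t * h⁻¹ ≠ t → t ≠ 1 ∧ t ≠ z := by
          intro t ht
          refine ⟨fun e' => ht ?_, fun e' => ht ?_⟩
          · rw [e', mul_one, mul_inv_cancel]
          · rw [e', hzfix]
        obtain ⟨a1, a2⟩ := nz d hne'
        obtain ⟨b1, b2⟩ := nz d1 n12.symm
        obtain ⟨c1, c2⟩ := nz d2 (fun e' => n02 (by rw [← e3, e']))
        have hsub : ({1, z, d, d1, d2} : Finset N) ⊆ (commutator N : Set N).toFinite.toFinset := by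
          intro t ht
          simp only [Finset.mem_insert, Finset.mem_singleton] at ht
          rw [Set.Finite.mem_toFinset, SetLike.mem_coe]
          rcases ht with rfl | rfl | rfl | rfl | rfl
          exacts [one_mem _, hzD, hd, hd1m, hd2m]
        have hc := Finset.card_le_card hsub
        rw [← Set.ncard_eq_toFinset_card _] at hc
        rw [Finset.card_insert_of_notMem (by simp [hz1.symm, a1.symm, b1.symm, c1.symm]),
          Finset.card_insert_of_notMem (by simp [a2.symm, b2.symm, c2.symm]),
          Finset.card_insert_of_notMem (by simp [Ne.symm hne', n02]),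
          Finset.card_insert_of_notMem (by simp [n12]), Finset.card_singleton] at hc
        change 5 ≤ Nat.card (commutator N) at hc
        omega
      have hcent : (h : G) ∈ Subgroup.centralizer ((S : Subgroup G) : Set G) := by
        rw [Subgroup.mem_centralizer_iff]
        intro s hs
        set s' : N := ⟨s, hSN hs⟩
        have hc : ⁅s', h⁆ ∈ commutator N := by
          rw [commutator_def]
          exact Subgroup.commutator_mem_commutator (Subgroup.mem_top _) (Subgroup.mem_top _)
        have hcomm : Commute h ⁅s', h⁆ := by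
          have := hfix _ hc
          rwa [mul_inv_eq_iff_eq_mul] at this
        have hprod : ⁅s', h⁆ * h = s' * h * s'⁻¹ := by rw [commutatorElement_def]; group
        have hc3 : ⁅s', h⁆ ^ 3 = 1 := by
          have h1 : (⁅s', h⁆ * h) ^ 3 = ⁅s', h⁆ ^ 3 * h ^ 3 := hcomm.symm.mul_pow 3
          rw [hhh, mul_one, hprod, conj_pow, hhh, mul_one, mul_inv_cancel] at h1
          exact h1.symm
        have hc8 : ⁅s', h⁆ ^ 8 = 1 := by
          have hmem : ⁅s', h⁆ ∈ S' := hDle hc
          have := pow_card_eq_one' (x := (⟨_, hmem⟩ : S'))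
          rw [hS'8] at this
          exact congrArg Subtype.val this
        have hc1 : ⁅s', h⁆ = 1 := by
          have h9 : ⁅s', h⁆ ^ 9 = 1 := by
            rw [show 9 = 3 * 3 by norm_num, pow_mul, hc3, one_pow]
          rwa [pow_succ, hc8, one_mul] at h9
        exact congrArg Subtype.val (commutatorElement_eq_one_iff_mul_comm.1 hc1)
      rw [hCS] at hcent
      have h2' : h ^ 2 = 1 := Subtype.ext (by
        rcases center_cases hcent with e' | e'
        · rw [Subgroup.coe_pow, e', one_pow, Subgroup.coe_one]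
        · rw [Subgroup.coe_pow, e', SL2Char.negId_sq, Subgroup.coe_one])
      have := Nat.le_of_dvd (by norm_num) (orderOf_dvd_of_pow_eq_one h2')
      omega
    -- count
    letI := Fintype.ofFinite N
    set A := (Finset.univ : Finset (IrrCharacter N)).filter
      fun ψ : IrrCharacter N => (ψ : N → ℂ) z = (ψ : N → ℂ) 1 with hA
    have hpm : ∀ ψ : IrrCharacter N, (ψ : N → ℂ) z = (ψ : N → ℂ) 1 ∨
        (ψ : N → ℂ) z = -(ψ : N → ℂ) 1 := by
      intro ψ
      obtain ⟨ω, hω, hωz, -⟩ := Char.irr_mul_center ψ.2 hzc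
      rw [orderOf_eq_prime (p := 2) (by rw [pow_two, hz2]) hz1] at hω
      rcases sq_eq_one_iff.1 hω with rfl | rfl
      · exact Or.inl (by rw [hωz, one_mul])
      · exact Or.inr (by rw [hωz, neg_one_mul])
    have hoddA : ∀ ψ : IrrCharacter N, ¬ 2 ∣ charDegree (ψ : N → ℂ) → ψ ∈ A := fun ψ hψ => by
      rw [hA, Finset.mem_filter]
      exact ⟨Finset.mem_univ _, apply_commutator_of_odd ψ
        (Nat.odd_iff.2 (by omega)) hzc hz2⟩
    have hsumA : ∑ ψ ∈ A, charDegree (ψ : N → ℂ) ^ 2 = 12 := by
      have e1 : ∑ ψ : IrrCharacter N, (ψ : N → ℂ) 1 ^ 2 = (Nat.card N : ℂ) :=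
        Char.sum_irr_degree_sq
      have e2 := Char.sum_irr_degree_mul z
      rw [if_neg hz1] at e2
      have e3 : ∑ ψ : IrrCharacter N, ((ψ : N → ℂ) 1 ^ 2 + (ψ : N → ℂ) 1 * (ψ : N → ℂ) z) =
          ((24 : ℕ) : ℂ) := by
        rw [Finset.sum_add_distrib, e1, e2, hN24, add_zero]
      rw [← Finset.sum_filter_add_sum_filter_not Finset.univ
        (fun ψ : IrrCharacter N => (ψ : N → ℂ) z = (ψ : N → ℂ) 1)] at e3
      rw [Finset.sum_eq_zero (s := Finset.univ.filter
        fun ψ : IrrCharacter N => ¬ (ψ : N → ℂ) z = (ψ : N → ℂ) 1) fun ψ hψ => by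
        rw [Finset.mem_filter] at hψ
        rw [(hpm ψ).resolve_left hψ.2]; ring, add_zero, ← hA,
        Finset.sum_congr rfl (g := fun ψ : IrrCharacter N =>
          ((2 * charDegree (ψ : N → ℂ) ^ 2 : ℕ) : ℂ)) fun ψ hψ => by
          rw [hA, Finset.mem_filter] at hψ
          rw [hψ.2, (Char.irr_charDegree_spec ψ.2).2]; push_cast; ring] at e3
      have e4 : ∑ ψ ∈ A, 2 * charDegree (ψ : N → ℂ) ^ 2 = 24 := by exact_mod_cast e3
      rw [← Finset.mul_sum] at e4
      omega
    have hlinA : (A.filter fun ψ : IrrCharacter N => charDegree (ψ : N → ℂ) = 1).card = 3 := by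
      rw [← hD, ← hlin, Nat.card_eq_fintype_card, Fintype.card_subtype]
      congr 1
      ext ψ
      simp only [Finset.mem_filter, Finset.mem_univ, true_and, and_iff_right_iff_imp]
      intro hψ
      exact hoddA ψ (by rw [hψ]; norm_num)
    have hle : ∀ ψ ∈ A, 1 ≤ charDegree (ψ : N → ℂ) ∧ charDegree (ψ : N → ℂ) ≤ 3 := by
      intro ψ hψ
      refine ⟨(Char.irr_charDegree_spec ψ.2).1, ?_⟩
      have := Finset.single_le_sum (f := fun φ : IrrCharacter N => charDegree (φ : N → ℂ) ^ 2)
        (fun φ _ => Nat.zero_le _) hψ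
      rw [hsumA] at this
      by_contra hc
      have := Nat.pow_le_pow_left (show 4 ≤ charDegree (ψ : N → ℂ) by omega) 2
      omega
    have hsplit : ∑ ψ ∈ A, charDegree (ψ : N → ℂ) ^ 2 =
        (A.filter fun ψ : IrrCharacter N => charDegree (ψ : N → ℂ) = 1).card +
          4 * (A.filter fun ψ : IrrCharacter N => charDegree (ψ : N → ℂ) = 2).card +
          9 * (A.filter fun ψ : IrrCharacter N => charDegree (ψ : N → ℂ) = 3).card := by
      simp only [Finset.card_filter, Finset.mul_sum, ← Finset.sum_add_distrib]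
      refine Finset.sum_congr rfl fun ψ hψ => ?_
      obtain ⟨a, b⟩ := hle ψ hψ
      interval_cases charDegree (ψ : N → ℂ) <;> norm_num
    rw [Nat.card_eq_fintype_card, Fintype.card_subtype,
      show (Finset.univ.filter fun ψ : IrrCharacter N => ¬ 2 ∣ charDegree (ψ : N → ℂ)) =
        (A.filter fun ψ : IrrCharacter N => charDegree (ψ : N → ℂ) = 1) ∪
          (A.filter fun ψ : IrrCharacter N => charDegree (ψ : N → ℂ) = 3) from ?_, Finset.card_union_of_disjoint]
    · omega
    · exact Finset.disjoint_filter.2 fun ψ _ a b => by omega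
    · ext ψ
      simp only [Finset.mem_filter, Finset.mem_univ, true_and, Finset.mem_union]
      constructor
      · intro hψ
        have hψA := hoddA ψ hψ
        obtain ⟨a, b⟩ := hle ψ hψA
        rcases (show charDegree (ψ : N → ℂ) = 1 ∨ charDegree (ψ : N → ℂ) = 3 by omega) with c | c
        exacts [Or.inl ⟨hψA, c⟩, Or.inr ⟨hψA, c⟩]
      · rintro (⟨-, c⟩ | ⟨-, c⟩) <;> omega

end Cfsg.Agent.SL2Val
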